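import Cfsg.Agent.H26.CharOrtho
import Mathlib.GroupTheory.ClassEquation
import Mathlib.GroupTheory.GroupAction.ConjAct
import Mathlib.Algebra.BigOperators.Fin

/-!
# Landau's theorem

Finitely many classes bound the order of a finite group.
-/

set_option autoImplicit false

namespace Cfsg.Agent.H56.Landau

universe u

/-- The denominators of a representation of a fixed rational as a sum of `k` unit fractions are
bounded. -/
theorem exists_bound_unit_fractions (k : ℕ) : ∀ r : ℚ, ∃ N : ℕ, ∀ n : Fin k → ℕ,
    (∀ i, 0 < n i) → ∑ i, (1 : ℚ) / n i = r → ∀ i, n i ≤ N := by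
  induction k with
  | zero => exact fun r => ⟨0, fun n _ _ i => i.elim0⟩
  | succ k ih =>
    intro r
    choose N hN using ih
    refine ⟨max ⌈((k : ℚ) + 1) / r⌉₊
      ((Finset.range (⌈((k : ℚ) + 1) / r⌉₊ + 1)).sup fun m => N (r - 1 / (m : ℚ))),
      fun n hn hsum j => ?_⟩
    obtain ⟨i, -, hi⟩ := Finset.exists_min_image Finset.univ n ⟨0, Finset.mem_univ _⟩
    have hni : (0 : ℚ) < n i := Nat.cast_pos.2 (hn i)
    have hr : 0 < r := hsum ▸ Finset.sum_pos
      (fun j _ => div_pos one_pos (Nat.cast_pos.2 (hn j))) ⟨0, Finset.mem_univ _⟩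
    have hle : r ≤ ((k : ℚ) + 1) / n i := by
      rw [← hsum]
      refine (Finset.sum_le_card_nsmul _ _ ((1 : ℚ) / n i) fun j hj => ?_).trans (le_of_eq ?_)
      · exact one_div_le_one_div_of_le hni (Nat.cast_le.2 (hi j hj))
      · rw [Finset.card_univ, Fintype.card_fin, nsmul_eq_mul]; push_cast; ring
    have hnle : n i ≤ ⌈((k : ℚ) + 1) / r⌉₊ := by
      have h1 : (n i : ℚ) ≤ ((k : ℚ) + 1) / r := by
        rw [le_div_iff₀ hr]; rw [le_div_iff₀ hni] at hle; linarith
      exact_mod_cast h1.trans (Nat.le_ceil _)
    rcases eq_or_ne j i with rfl | hj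
    · exact le_max_of_le_left hnle
    · obtain ⟨j', rfl⟩ := Fin.exists_succAbove_eq hj
      refine le_max_of_le_right ((hN (r - 1 / (n i : ℚ)) (fun j => n (i.succAbove j))
        (fun j => hn _) ?_ j').trans
        (Finset.le_sup (f := fun m : ℕ => N (r - 1 / (m : ℚ))) (b := n i) (Finset.mem_range.2
          (Nat.lt_succ_of_le hnle))))
      rw [← hsum, Fin.sum_univ_succAbove (fun j => (1 : ℚ) / n j) i]
      ring

/-- **Landau.** The number of classes bounds the order. -/
theorem exists_bound_card_of_classes (K : ℕ) : ∃ N : ℕ, ∀ (G : Type u) [Group G] [Finite G],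
    Nat.card (ConjClasses G) ≤ K → Nat.card G ≤ N := by
  choose N hN using fun k => exists_bound_unit_fractions k 1
  refine ⟨(Finset.range (K + 1)).sup N, fun G _ _ hK => ?_⟩
  classical
  haveI := Fintype.ofFinite G
  haveI := Fintype.ofFinite (ConjClasses G)
  set k := Fintype.card (ConjClasses G) with hk
  let e := Fintype.equivFin (ConjClasses G)
  let cen : ConjClasses G → ℕ := fun c => Nat.card (Subgroup.centralizer ({c.out} : Set G))
  have hcen : ∀ c : ConjClasses G, (1 : ℚ) / cen c = (c.carrier.ncard : ℚ) / Nat.card G := by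
    intro c
    have h : c.carrier.ncard * cen c = Nat.card G := by
      have h0 : c.carrier = MulAction.orbit (ConjAct G) c.out := by
        rw [ConjAct.orbit_eq_carrier_conjClasses]
        exact congrArg ConjClasses.carrier (Quotient.out_eq c).symm
      have h1 : cen c = Nat.card (MulAction.stabilizer (ConjAct G) c.out) :=
        Nat.card_congr
          { toFun := fun g => ⟨ConjAct.toConjAct (g : G), by
              have := Subgroup.mem_centralizer_singleton_iff.1 g.2
              rw [MulAction.mem_stabilizer_iff, ConjAct.smul_def, ConjAct.ofConjAct_toConjAct, this,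
                mul_inv_cancel_right]⟩
            invFun := fun g => ⟨ConjAct.ofConjAct (g : ConjAct G), by
              have := MulAction.mem_stabilizer_iff.1 g.2
              rw [ConjAct.smul_def, mul_inv_eq_iff_eq_mul] at this
              exact Subgroup.mem_centralizer_singleton_iff.2 this⟩
            left_inv := fun g => Subtype.ext rfl
            right_inv := fun g => Subtype.ext rfl }
      rw [h0, h1, ← MulAction.index_stabilizer, Subgroup.index_mul_card]
      rfl
    have hc : (cen c : ℚ) ≠ 0 := Nat.cast_ne_zero.2 Nat.card_pos.ne'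
    rw [eq_div_iff (Nat.cast_ne_zero.2 Nat.card_pos.ne'), ← h]
    push_cast
    field_simp
  have hsum : ∑ i, (1 : ℚ) / cen (e.symm i) = 1 := by
    rw [Equiv.sum_comp e.symm fun c => (1 : ℚ) / cen c, Finset.sum_congr rfl fun c _ => hcen c,
      ← Finset.sum_div, div_eq_one_iff_eq (Nat.cast_ne_zero.2 Nat.card_pos.ne')]
    rw [← Group.sum_card_conj_classes_eq_card G, finsum_eq_sum_of_fintype]
    push_cast
    rfl
  have h := hN k (fun i => cen (e.symm i)) (fun _ => Nat.card_pos) hsum (e (ConjClasses.mk 1))
  rw [Equiv.symm_apply_apply] at h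
  have h1 : cen (ConjClasses.mk (1 : G)) = Nat.card G := by
    have : (ConjClasses.mk (1 : G)).out = 1 :=
      isConj_one_right.1 ((ConjClasses.mk_eq_mk_iff_isConj.1
        (Quotient.out_eq (ConjClasses.mk (1 : G)))).symm)
    simp only [cen, this]
    rw [show Subgroup.centralizer ({1} : Set G) = ⊤ from eq_top_iff.2 fun g _ =>
      Subgroup.mem_centralizer_singleton_iff.2 (by rw [one_mul, mul_one]), Subgroup.card_top]
  exact h1 ▸ h.trans (Finset.le_sup (Finset.mem_range.2
    (Nat.lt_succ_of_le (by rw [hk, ← Nat.card_eq_fintype_card]; exact hK))))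

end Cfsg.Agent.H56.Landau
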