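import Cfsg.Agent.H19.Cores
import Mathlib.GroupTheory.SchurZassenhaus
import Mathlib.GroupTheory.GroupAction.ConjAct
import Mathlib.GroupTheory.GroupAction.Quotient
import Mathlib.GroupTheory.IndexNormal

/-!
# Groups with a small involution centralizer and trivial odd core

Such groups have bounded order, given a bound on the order of their Sylow `2`-subgroups.
-/

set_option autoImplicit false
set_option linter.unusedSectionVars false

namespace Cfsg.Agent.H56.Deficiency

universe u

/-- No nontrivial normal subgroup of odd order. -/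
def OddCoreFree (G : Type*) [Group G] : Prop :=
  ∀ N : Subgroup G, N.Normal → Odd (Nat.card N) → N = ⊥

variable {G : Type*} [Group G] [Finite G]

theorem isPGroup_of_abelian_normal (hG : OddCoreFree G) (A : Subgroup G) [A.Normal]
    (hA : ∀ u ∈ A, ∀ v ∈ A, u * v = v * u) : IsPGroup 2 A := by
  haveI : Fact (Nat.Prime 2) := ⟨Nat.prime_two⟩
  -- the elements of odd order of `A`
  let T : Subgroup G :=
    { carrier := {g | g ∈ A ∧ Odd (orderOf g)}
      one_mem' := ⟨A.one_mem, by simp⟩
      mul_mem' := fun {u v} hu hv => ⟨A.mul_mem hu.1 hv.1,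
        (hu.2.mul hv.2).of_dvd_nat (Commute.orderOf_mul_dvd_mul_orderOf (hA u hu.1 v hv.1))⟩
      inv_mem' := fun {u} hu => ⟨A.inv_mem hu.1, by rw [orderOf_inv]; exact hu.2⟩ }
  haveI : T.Normal := ⟨fun n hn g => ⟨Subgroup.Normal.conj_mem inferInstance n hn.1 g, by
    have : orderOf (g * n * g⁻¹) = orderOf n :=
      orderOf_injective (MulAut.conj g).toMonoidHom (MulAut.conj g).injective n
    rw [this]; exact hn.2⟩⟩
  have hT : T = ⊥ := hG T inferInstance (by
    by_contra hodd
    have h2 : 2 ∣ Nat.card T := even_iff_two_dvd.1 (Nat.not_odd_iff_even.1 hodd)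
    obtain ⟨t, ht⟩ := exists_prime_orderOf_dvd_card' 2 h2
    exact absurd (t.2.2 : Odd (orderOf (t : G))) (by rw [Subgroup.orderOf_coe, ht]; decide))
  intro g
  obtain ⟨k, m, hm, he⟩ := Nat.exists_eq_two_pow_mul_odd (orderOf_pos g).ne'
  refine ⟨k, ?_⟩
  have hord : orderOf (g ^ 2 ^ k) = m := by
    rw [orderOf_pow' g (pow_ne_zero k two_ne_zero), he, Nat.gcd_mul_right_left,
      Nat.mul_div_cancel_left _ (pow_pos two_pos k)]
  have hmem : ((g ^ 2 ^ k : A) : G) ∈ T := ⟨SetLike.coe_mem _, by rw [Subgroup.orderOf_coe, hord]; exact hm⟩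
  rw [hT, Subgroup.mem_bot] at hmem
  exact Subtype.ext hmem

theorem card_abelian_normal_le (hG : OddCoreFree G) {a : ℕ} (ha : (Nat.card G).factorization 2 ≤ a)
    (A : Subgroup G) [A.Normal] (hA : ∀ u ∈ A, ∀ v ∈ A, u * v = v * u) :
    Nat.card A ≤ 2 ^ a := by
  haveI : Fact (Nat.Prime 2) := ⟨Nat.prime_two⟩
  obtain ⟨k, hk⟩ := IsPGroup.iff_card.1 (isPGroup_of_abelian_normal hG A hA)
  rw [hk]
  have h : 2 ^ k ∣ Nat.card G := hk ▸ Subgroup.card_subgroup_dvd_card A
  exact Nat.pow_le_pow_right two_pos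
    (((Nat.prime_two.pow_dvd_iff_le_factorization Nat.card_pos.ne').1 h).trans ha)

open scoped Classical in
/-- The orbit of an element under conjugation and its centralizer. -/
theorem card_conj_mul_centralizer [Fintype G] (x : G) :
    (Finset.univ.image fun g : G => g * x * g⁻¹).card *
      Nat.card (Subgroup.centralizer ({x} : Set G)) = Nat.card G := by
  classical
  rw [Nat.card_eq_fintype_card (α := G), ← Finset.card_univ,
    Finset.card_eq_sum_card_image (fun g : G => g * x * g⁻¹) Finset.univ,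
    Finset.sum_const_nat (m := Nat.card (Subgroup.centralizer ({x} : Set G)))]
  intro y hy
  obtain ⟨g₀, -, rfl⟩ := Finset.mem_image.1 hy
  rw [Nat.card_eq_fintype_card, ← Fintype.card_coe]
  refine Fintype.card_congr
    { toFun := fun g => ⟨g₀⁻¹ * (g : G), Subgroup.mem_centralizer_singleton_iff.2 ?_⟩
      invFun := fun c => ⟨g₀ * (c : G), Finset.mem_filter.2 ⟨Finset.mem_univ _, ?_⟩⟩
      left_inv := fun g => Subtype.ext (mul_inv_cancel_left g₀ g)
      right_inv := fun c => Subtype.ext (inv_mul_cancel_left g₀ c) }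
  · have h := (Finset.mem_filter.1 g.2).2
    calc g₀⁻¹ * (g : G) * x = g₀⁻¹ * ((g : G) * x * (g : G)⁻¹) * (g : G) := by group
      _ = x * (g₀⁻¹ * (g : G)) := by rw [h]; group
  · have h := Subgroup.mem_centralizer_singleton_iff.1 c.2
    calc g₀ * (c : G) * x * (g₀ * (c : G))⁻¹ = g₀ * ((c : G) * x * (c : G)⁻¹) * g₀⁻¹ := by group
      _ = g₀ * x * g₀⁻¹ := by rw [h, mul_inv_cancel_right]

open scoped Classical in
/-- A non-central involution produces a nontrivial element whose centralizer has small index. -/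
theorem exists_small_index [Fintype G] {x : G} (hx : orderOf x = 2) {c : ℕ}
    (hc : Nat.card (Subgroup.centralizer ({x} : Set G)) ≤ c)
    (hncen : c < Nat.card G) :
    ∃ z : G, z ≠ 1 ∧ (Subgroup.centralizer ({z} : Set G)).index ≤ 2 * c ^ 2 := by
  classical
  set I := Finset.univ.image fun g : G => g * x * g⁻¹ with hI
  have hsq : ∀ s ∈ I, s * s = 1 := by
    intro s hs
    obtain ⟨g, -, rfl⟩ := Finset.mem_image.1 hs
    have hxx : x * x = 1 := by rw [← sq, ← hx, pow_orderOf_eq_one]
    calc g * x * g⁻¹ * (g * x * g⁻¹) = g * (x * x) * g⁻¹ := by group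
      _ = 1 := by rw [hxx, mul_one, mul_inv_cancel]
  have hmc : Nat.card G ≤ I.card * c := by
    rw [← card_conj_mul_centralizer x]; exact Nat.mul_le_mul_left _ hc
  have hm2 : 2 ≤ I.card := by
    by_contra h
    have : I.card * c ≤ 1 * c := Nat.mul_le_mul_right c (by omega)
    omega
  by_contra hall
  push Not at hall
  have hlt : ∀ z : G, z ≠ 1 →
      Nat.card (Subgroup.centralizer ({z} : Set G)) * (2 * c ^ 2) ≤ Nat.card G := by
    intro z hz
    rw [← (Subgroup.centralizer ({z} : Set G)).card_mul_index]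
    exact Nat.mul_le_mul_left _ (hall z hz).le
  have hfib : ∀ z : G, ((I ×ˢ I).filter fun q => q.1 * q.2 = z).card ≤
      if z = 1 then I.card else Nat.card (Subgroup.centralizer ({z} : Set G)) := by
    intro z
    split_ifs with hz
    · refine Finset.card_le_card_of_injOn Prod.fst (fun q hq =>
        (Finset.mem_product.1 (Finset.mem_filter.1 hq).1).1) ?_
      intro q hq q' hq' h
      have e := (Finset.mem_filter.1 (Finset.mem_coe.1 hq)).2
      have e' := (Finset.mem_filter.1 (Finset.mem_coe.1 hq')).2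
      refine Prod.ext h ?_
      rw [hz] at e e'
      rw [← eq_inv_of_mul_eq_one_right e |>.symm, ← eq_inv_of_mul_eq_one_right e' |>.symm, h]
    · rcases ((I ×ˢ I).filter fun q => q.1 * q.2 = z).eq_empty_or_nonempty with h0 | ⟨q₀, hq₀⟩
      · rw [h0]; exact Nat.zero_le _
      · have hinv : ∀ q ∈ (I ×ˢ I).filter (fun q => q.1 * q.2 = z), q.1 * z = z⁻¹ * q.1 := by
          intro q hq
          obtain ⟨hqI, rfl⟩ := Finset.mem_filter.1 hq
          obtain ⟨h1, h2⟩ := Finset.mem_product.1 hqI
          have e1 := hsq _ h1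
          have e2 := hsq _ h2
          rw [mul_inv_rev, inv_mul_cancel_right, ← eq_inv_of_mul_eq_one_left e2, ← mul_assoc, e1,
            one_mul]
        rw [Nat.card_eq_fintype_card, ← Finset.card_univ]
        refine Finset.card_le_card_of_injOn
          (fun q => if hq : q ∈ (I ×ˢ I).filter (fun q => q.1 * q.2 = z) then
            (⟨q₀.1⁻¹ * q.1, Subgroup.mem_centralizer_singleton_iff.2 (by
              have a := hinv q hq
              have b := hinv q₀ hq₀
              calc q₀.1⁻¹ * q.1 * z = q₀.1⁻¹ * (q.1 * z) := mul_assoc _ _ _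
                _ = q₀.1⁻¹ * (z⁻¹ * q.1) := by rw [a]
                _ = z * q₀.1⁻¹ * q.1 := by
                  rw [← mul_assoc]
                  congr 1
                  calc q₀.1⁻¹ * z⁻¹ = q₀.1⁻¹ * (z⁻¹ * q₀.1) * q₀.1⁻¹ := by group
                    _ = q₀.1⁻¹ * (q₀.1 * z) * q₀.1⁻¹ := by rw [b]
                    _ = z * q₀.1⁻¹ := by group
                _ = z * (q₀.1⁻¹ * q.1) := mul_assoc _ _ _)⟩ :
              Subgroup.centralizer ({z} : Set G)) else 1)
          (fun q _ => Finset.mem_univ _) ?_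
        intro q hq q' hq' h
        simp only [Finset.mem_coe] at hq hq'
        simp only [dif_pos hq, dif_pos hq', Subtype.mk.injEq, mul_right_inj] at h
        refine Prod.ext h ?_
        have e := (Finset.mem_filter.1 hq).2
        rw [← (Finset.mem_filter.1 hq').2, h] at e
        exact mul_left_cancel e
  have hsum : I.card * I.card ≤ I.card +
      ∑ z ∈ Finset.univ.erase (1 : G), Nat.card (Subgroup.centralizer ({z} : Set G)) := by
    rw [← Finset.card_product, Finset.card_eq_sum_card_fiberwise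
      (f := fun q : G × G => q.1 * q.2) (t := Finset.univ) (fun q _ => Finset.mem_univ _),
      ← Finset.add_sum_erase Finset.univ _ (Finset.mem_univ (1 : G))]
    refine add_le_add ((hfib 1).trans (by rw [if_pos rfl])) (Finset.sum_le_sum fun z hz => ?_)
    exact (hfib z).trans (by rw [if_neg (Finset.ne_of_mem_erase hz)])
  have hS : (∑ z ∈ Finset.univ.erase (1 : G), Nat.card (Subgroup.centralizer ({z} : Set G))) *
      (2 * c ^ 2) < Nat.card G * Nat.card G := by
    rw [Finset.sum_mul]
    refine (Finset.sum_le_card_nsmul _ _ (Nat.card G) fun z hz =>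
      hlt z (Finset.ne_of_mem_erase hz)).trans_lt ?_
    rw [smul_eq_mul, Finset.card_erase_of_mem (Finset.mem_univ _), Finset.card_univ,
      ← Nat.card_eq_fintype_card]
    exact Nat.mul_lt_mul_of_pos_right (Nat.sub_lt Nat.card_pos one_pos) Nat.card_pos
  generalize (∑ z ∈ Finset.univ.erase (1 : G), Nat.card (Subgroup.centralizer ({z} : Set G))) = S
    at hsum hS
  generalize I.card = m at hsum hmc hm2
  generalize Nat.card G = g at hmc hS
  have h1 : g * g ≤ m * c * (m * c) := Nat.mul_le_mul hmc hmc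
  have h2 : 2 * m ≤ m * m := Nat.mul_le_mul_right m hm2
  have h3 : m * m ≤ 2 * S := by omega
  have h4 : m * c * (m * c) ≤ S * (2 * c ^ 2) :=
    calc m * c * (m * c) = m * m * c ^ 2 := by ring
      _ ≤ 2 * S * c ^ 2 := Nat.mul_le_mul_right _ h3
      _ = S * (2 * c ^ 2) := by ring
  omega

theorem index_normalCore_le (H : Subgroup G) : H.normalCore.index ≤ H.index.factorial := by
  classical
  haveI := Fintype.ofFinite (G ⧸ H)
  rw [Subgroup.normalCore_eq_ker, Subgroup.index_ker, Subgroup.index, Nat.card_eq_fintype_card,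
    Nat.card_eq_fintype_card, ← Fintype.card_perm]
  exact Fintype.card_subtype_le _

/-- One step of the reduction: a normal subgroup of bounded order with quotient of smaller
`2`-part. -/
theorem exists_normal_bounded {a : ℕ} (hG : OddCoreFree G)
    (ha : (Nat.card G).factorization 2 ≤ a + 1) {z : G} (hz : z ≠ 1) {i : ℕ}
    (hi : (Subgroup.centralizer ({z} : Set G)).index ≤ i) :
    ∃ N M : Subgroup G, N.Normal ∧ M.Normal ∧ N ≤ M ∧ Nat.card N ≤ 2 ^ (a + 1) * i.factorial ∧
      Nat.card M ≤ 2 ^ (a + 1) * i.factorial ∧ (∀ h : M.Normal, OddCoreFree (G ⧸ M)) ∧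
      M.index.factorization 2 ≤ a ∧ (∀ g ∈ M, g ^ 2 = 1 → g ∈ N) := by
  classical
  haveI : Fact (Nat.Prime 2) := ⟨Nat.prime_two⟩
  set N := Subgroup.normalClosure ({z} : Set G) with hN
  set K := Subgroup.centralizer (N : Set G) with hK
  have hcoreK : (Subgroup.centralizer ({z} : Set G)).normalCore ≤ K := by
    rw [hK, Subgroup.le_centralizer_iff]
    refine Subgroup.normalClosure_le_normal ?_
    rintro _ rfl
    rw [SetLike.mem_coe, Subgroup.mem_centralizer_iff]
    exact fun k hk => Subgroup.mem_centralizer_singleton_iff.1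
      (Subgroup.normalCore_le _ hk)
  have hKi : K.index ≤ i.factorial :=
    (Nat.le_of_dvd (Nat.pos_of_ne_zero Subgroup.index_ne_zero_of_finite)
      (Subgroup.index_dvd_of_le hcoreK)).trans
      ((index_normalCore_le _).trans (Nat.factorial_le hi))
  have hrel : ∀ H : Subgroup G, K.relIndex H ≤ i.factorial := fun H => by
    refine le_trans ?_ hKi
    rw [← Subgroup.relIndex_top_right K]
    exact Subgroup.relIndex_le_of_le_right le_top (by
      rw [Subgroup.relIndex_top_right]; exact Subgroup.index_ne_zero_of_finite)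
  have hNK : Nat.card (N ⊓ K : Subgroup G) ≤ 2 ^ (a + 1) :=
    card_abelian_normal_le hG ha (N ⊓ K) fun u hu v hv =>
      Subgroup.mem_centralizer_iff.1 hv.2 u hu.1
  have hNcard : Nat.card N ≤ 2 ^ (a + 1) * i.factorial := by
    rw [← Subgroup.relIndex_bot_left, ← Subgroup.relIndex_mul_relIndex ⊥ (N ⊓ K) N bot_le inf_le_left,
      Subgroup.relIndex_bot_left, Subgroup.inf_relIndex_left]
    exact Nat.mul_le_mul hNK (hrel N)
  have hNeven : 2 ∣ Nat.card N := by
    by_contra h
    have := hG N inferInstance (Nat.odd_iff.2 (Nat.two_dvd_ne_zero.1 h))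
    exact hz ((Subgroup.eq_bot_iff_forall N).1 this z (Subgroup.subset_normalClosure rfl))
  set Mb := Cfsg.pPrimeCore 2 (G ⧸ N) with hMb
  haveI : Mb.Normal := H19.pPrimeCore_normal 2 _
  have hMbodd : Odd (Nat.card Mb) :=
    Nat.coprime_two_right.1 (H19.pPrimeCore_coprime (G := G ⧸ N) 2)
  set M := Mb.comap (QuotientGroup.mk' N) with hM
  have hNM : N ≤ M := fun g hg => by
    rw [hM, Subgroup.mem_comap, QuotientGroup.mk'_apply, (QuotientGroup.eq_one_iff g).2 hg]
    exact Mb.one_mem
  have hcomap : ∀ W : Subgroup (G ⧸ N), N.relIndex (W.comap (QuotientGroup.mk' N)) = Nat.card W := by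
    intro W
    have h := Subgroup.relIndex_comap ⊥ (QuotientGroup.mk' N) (W.comap (QuotientGroup.mk' N))
    rwa [MonoidHom.comap_bot, QuotientGroup.ker_mk',
      Subgroup.map_comap_eq_self_of_surjective (QuotientGroup.mk'_surjective N),
      Subgroup.relIndex_bot_left] at h
  -- the part of `M` centralizing `N`
  set L := M ⊓ K with hL
  set φ := (QuotientGroup.mk' N).comp L.subtype with hφ
  have hZc : ∀ u : L, u ∈ φ.ker → ∀ v : L, u * v = v * u := fun u hu v => Subtype.ext
    (Subgroup.mem_centralizer_iff.1 v.2.2 u ((QuotientGroup.eq_one_iff (u : G)).1 hu))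
  have hodd : Odd φ.ker.index := by
    rw [Subgroup.index_ker]
    refine hMbodd.of_dvd_nat (Subgroup.card_dvd_of_le ?_)
    rintro _ ⟨u, rfl⟩
    exact u.2.1
  have hkmap : φ.ker.map L.subtype ≤ N ⊓ K := by
    rintro _ ⟨u, hu, rfl⟩
    exact ⟨(QuotientGroup.eq_one_iff (u : G)).1 hu, u.2.2⟩
  have hkcard : ∃ k, Nat.card φ.ker = 2 ^ k ∧ 2 ^ k ≤ 2 ^ (a + 1) := by
    have hp : IsPGroup 2 (φ.ker.map L.subtype) :=
      (isPGroup_of_abelian_normal hG (N ⊓ K) fun u hu v hv =>
        Subgroup.mem_centralizer_iff.1 hv.2 u hu.1).to_le hkmap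
    obtain ⟨k, hk⟩ := IsPGroup.iff_card.1 hp
    rw [Subgroup.card_map_of_injective L.subtype_injective] at hk
    refine ⟨k, hk, hk ▸ le_trans ?_ hNK⟩
    rw [← Subgroup.card_map_of_injective L.subtype_injective]
    exact Subgroup.card_le_of_le hkmap
  obtain ⟨k, hk, hkle⟩ := hkcard
  obtain ⟨T, hT⟩ := Subgroup.exists_right_complement'_of_coprime (N := φ.ker)
    (by rw [hk]; exact (Nat.coprime_two_left.2 hodd).pow_left k)
  have hTcard : Nat.card T = φ.ker.index := hT.symm.index_eq_card ▸ rfl
  haveI : T.Normal := ⟨fun n hn g => by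
    obtain ⟨⟨u, t⟩, hut⟩ := hT.2 g
    simp only at hut
    rw [← hut, mul_inv_rev]
    have h1 : (t : L) * n * (t : L)⁻¹ ∈ T := T.mul_mem (T.mul_mem t.2 hn) (T.inv_mem t.2)
    have h2 := hZc _ u.2 ((t : L) * n * (t : L)⁻¹)
    convert h1 using 1
    calc (u : L) * t * n * ((t : L)⁻¹ * (u : L)⁻¹) = (u : L) * ((t : L) * n * (t : L)⁻¹) * (u : L)⁻¹ := by
          group
      _ = (t : L) * n * (t : L)⁻¹ := by rw [h2, mul_inv_cancel_right]⟩
  have hTodd : ∀ u : L, Odd (orderOf u) → u ∈ T := by
    intro u hu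
    rw [← QuotientGroup.eq_one_iff, ← orderOf_eq_one_iff]
    refine Nat.eq_one_of_dvd_coprimes (Nat.Coprime.pow_left k (Nat.coprime_two_left.2 hu)) ?_
      (orderOf_map_dvd (QuotientGroup.mk' T) u)
    rw [← hk, ← hT.index_eq_card]
    exact orderOf_dvd_natCard _
  have hTbot : T = ⊥ := by
    have : (T.map L.subtype).Normal := ⟨by
      rintro _ ⟨t, ht, rfl⟩ g
      refine ⟨⟨g * t * g⁻¹, Subgroup.Normal.conj_mem inferInstance _ t.2 g⟩, hTodd _ ?_, rfl⟩
      rw [← Subgroup.orderOf_coe]
      show Odd (orderOf (g * (t : G) * g⁻¹))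
      rw [show orderOf (g * (t : G) * g⁻¹) = orderOf (t : G) from
        orderOf_injective (MulAut.conj g).toMonoidHom (MulAut.conj g).injective (t : G),
        Subgroup.orderOf_coe]
      exact hodd.of_dvd_nat (hTcard ▸ Subgroup.orderOf_dvd_natCard T ht)⟩
    have h := hG _ this (by
      rw [Subgroup.card_map_of_injective L.subtype_injective, hTcard]; exact hodd)
    exact (Subgroup.map_eq_bot_iff_of_injective _ L.subtype_injective).1 h
  have hLcard : Nat.card L ≤ 2 ^ (a + 1) := by
    rw [← hT.card_mul, hTbot, Subgroup.card_bot, mul_one, hk]; exact hkle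
  have hMcard : Nat.card M ≤ 2 ^ (a + 1) * i.factorial := by
    rw [← Subgroup.relIndex_bot_left, ← Subgroup.relIndex_mul_relIndex ⊥ (M ⊓ K) M bot_le inf_le_left,
      Subgroup.relIndex_bot_left, Subgroup.inf_relIndex_left]
    exact Nat.mul_le_mul hLcard (hrel M)
  refine ⟨N, M, inferInstance, inferInstance, hNM, hNcard, hMcard, fun hMn W hW hWodd => ?_, ?_, ?_⟩
  · set X := W.comap (QuotientGroup.mk' M) with hX
    have hMX : M ≤ X := fun g hg => by
      rw [hX, Subgroup.mem_comap, QuotientGroup.mk'_apply, (QuotientGroup.eq_one_iff g).2 hg]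
      exact W.one_mem
    have hXW : M.relIndex X = Nat.card W := by
      have h := Subgroup.relIndex_comap ⊥ (QuotientGroup.mk' M) (W.comap (QuotientGroup.mk' M))
      rwa [MonoidHom.comap_bot, QuotientGroup.ker_mk',
        Subgroup.map_comap_eq_self_of_surjective (QuotientGroup.mk'_surjective M),
        Subgroup.relIndex_bot_left] at h
    haveI : X.Normal := hW.comap _
    haveI : (X.map (QuotientGroup.mk' N)).Normal :=
      Subgroup.Normal.map inferInstance _ (QuotientGroup.mk'_surjective N)
    have hcard : Nat.card (X.map (QuotientGroup.mk' N)) = Nat.card Mb * Nat.card W := by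
      rw [← hcomap (X.map _), Subgroup.comap_map_eq_self (by rw [QuotientGroup.ker_mk']; exact hNM.trans hMX),
        ← Subgroup.relIndex_mul_relIndex N M X hNM hMX, hXW, show N.relIndex M = Nat.card Mb from hcomap Mb]
    have hle : X.map (QuotientGroup.mk' N) ≤ Mb := H19.le_pPrimeCore inferInstance
      (Nat.coprime_two_right.2 (hcard ▸ hMbodd.mul hWodd))
    rw [Subgroup.eq_bot_iff_forall]
    intro w hw
    obtain ⟨g, rfl⟩ := QuotientGroup.mk_surjective w
    exact (QuotientGroup.eq_one_iff g).2 (hle (Subgroup.mem_map_of_mem _ (show g ∈ X from hw)))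
  · have h1 : 1 ≤ (Nat.card M).factorization 2 :=
      Nat.prime_two.factorization_pos_of_dvd Nat.card_pos.ne'
        (hNeven.trans (Subgroup.card_dvd_of_le hNM))
    have h2 := congrArg (fun n : ℕ => n.factorization 2) M.card_mul_index
    simp only [Nat.factorization_mul Nat.card_pos.ne' M.index_ne_zero_of_finite, Finsupp.add_apply] at h2
    omega
  · intro g hg hg2
    rw [← QuotientGroup.eq_one_iff, ← orderOf_eq_one_iff]
    have h1 : orderOf (g : G ⧸ N) ∣ 2 := orderOf_dvd_of_pow_eq_one (by
      rw [← QuotientGroup.mk_pow, hg2, QuotientGroup.mk_one])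
    exact Nat.eq_one_of_dvd_coprimes (Nat.coprime_two_left.2 hMbodd) h1
      (Subgroup.orderOf_dvd_natCard Mb hg)

/-- The centralizer in a quotient by a normal subgroup is not much bigger. -/
theorem card_centralizer_quotient_le (x : G) (M : Subgroup G) [M.Normal] :
    Nat.card (Subgroup.centralizer ({(x : G ⧸ M)} : Set (G ⧸ M))) ≤
      Nat.card M * Nat.card (Subgroup.centralizer ({x} : Set G)) := by
  classical
  haveI := Fintype.ofFinite G
  set C := Subgroup.centralizer ({(x : G ⧸ M)} : Set (G ⧸ M))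
  set S := C.comap (QuotientGroup.mk' M) with hS
  have h1 : Nat.card C ≤ Nat.card S :=
    Nat.card_le_card_of_surjective (fun s : S => (⟨(s : G), s.2⟩ : C))
      (fun q => by
        obtain ⟨g, hg⟩ := QuotientGroup.mk_surjective (q : G ⧸ M)
        exact ⟨⟨g, show (g : G ⧸ M) ∈ C from hg ▸ q.2⟩, Subtype.ext hg⟩)
  refine h1.trans ?_
  set T : Finset G := Finset.univ.filter fun g => g ∈ S
  have hT : T.card = Nat.card S := by
    rw [Nat.card_eq_fintype_card, Fintype.card_subtype]
  rw [← hT, mul_comm]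
  refine (Finset.card_le_mul_card_image (f := fun g : G => g * x * g⁻¹) T
    (Nat.card (Subgroup.centralizer ({x} : Set G))) fun y hy => ?_).trans (Nat.mul_le_mul_left _ ?_)
  · obtain ⟨g₀, -, rfl⟩ := Finset.mem_image.1 hy
    rw [Nat.card_eq_fintype_card, ← Finset.card_univ]
    refine Finset.card_le_card_of_injOn
      (fun g => if h : g₀⁻¹ * g ∈ Subgroup.centralizer ({x} : Set G) then ⟨_, h⟩ else 1)
      (fun g _ => Finset.mem_univ _) ?_
    intro g hg g' hg' h
    have key : ∀ u ∈ T.filter (fun u => u * x * u⁻¹ = g₀ * x * g₀⁻¹),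
        g₀⁻¹ * u ∈ Subgroup.centralizer ({x} : Set G) := fun u hu => by
      rw [Subgroup.mem_centralizer_singleton_iff]
      have := (Finset.mem_filter.1 hu).2
      calc g₀⁻¹ * u * x = g₀⁻¹ * (u * x * u⁻¹) * u := by group
        _ = x * (g₀⁻¹ * u) := by rw [this]; group
    simp only [dif_pos (key g hg), dif_pos (key g' hg'), Subtype.mk.injEq, mul_right_inj] at h
    exact h
  · calc (T.image fun g => g * x * g⁻¹).card
        ≤ ((Finset.univ : Finset M).image fun m : M => (m : G) * x).card := by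
          refine Finset.card_le_card fun y hy => ?_
          obtain ⟨g, hg, rfl⟩ := Finset.mem_image.1 hy
          refine Finset.mem_image.2 ⟨⟨g * x * g⁻¹ * x⁻¹, ?_⟩, Finset.mem_univ _, inv_mul_cancel_right _ _⟩
          rw [← QuotientGroup.eq_one_iff]
          have h := Subgroup.mem_centralizer_singleton_iff.1
            (show (g : G ⧸ M) ∈ C from (Finset.mem_filter.1 hg).2)
          rw [QuotientGroup.mk_mul, QuotientGroup.mk_mul, QuotientGroup.mk_mul, QuotientGroup.mk_inv,
            QuotientGroup.mk_inv, h, mul_inv_cancel_right, mul_inv_cancel]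
      _ ≤ (Finset.univ : Finset M).card := Finset.card_image_le
      _ = Nat.card M := by rw [Finset.card_univ, Nat.card_eq_fintype_card]

/-- Trivial odd core, bounded Sylow `2`-subgroups and a bounded involution centralizer bound the
order. -/
theorem exists_bound_of_centralizer (a : ℕ) : ∀ c : ℕ, ∃ N : ℕ, ∀ (G : Type u) [Group G] [Finite G],
    OddCoreFree G → (Nat.card G).factorization 2 ≤ a → ∀ x : G, orderOf x = 2 →
    Nat.card (Subgroup.centralizer ({x} : Set G)) ≤ c → Nat.card G ≤ N := by
  induction a with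
  | zero =>
    refine fun c => ⟨0, fun G _ _ _ ha x hx _ => ?_⟩
    have := Nat.prime_two.factorization_pos_of_dvd Nat.card_pos.ne'
      (hx ▸ orderOf_dvd_natCard x : 2 ∣ Nat.card G)
    omega
  | succ a ih =>
    intro c
    set n₀ := 2 ^ (a + 1) * (2 * c ^ 2).factorial with hn₀
    obtain ⟨N', hN'⟩ := ih (n₀ * c)
    refine ⟨c + n₀ * c + n₀ * N', fun G _ _ hG ha x hx hc => ?_⟩
    haveI := Fintype.ofFinite G
    by_cases hsmall : Nat.card G ≤ c
    · omega
    obtain ⟨z, hz, hzi⟩ := exists_small_index hx hc (by omega)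
    obtain ⟨N, M, hN, hMn, -, hNc, hMc, hcore, hidx, hinv⟩ := exists_normal_bounded hG ha hz hzi
    by_cases hxN : x ∈ N
    · classical
      have h1 : (Finset.univ.image fun g : G => g * x * g⁻¹).card ≤ Nat.card N := by
        rw [Nat.card_eq_fintype_card, Fintype.card_subtype]
        refine Finset.card_le_card fun y hy => ?_
        obtain ⟨g, -, rfl⟩ := Finset.mem_image.1 hy
        exact Finset.mem_filter.2 ⟨Finset.mem_univ _, hN.conj_mem x hxN g⟩
      have h2 := card_conj_mul_centralizer x
      have h3 := Nat.mul_le_mul (h1.trans hNc) hc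
      rw [h2, ← hn₀] at h3
      omega
    · have hxM : x ∉ M := fun h => hxN (hinv x h (hx ▸ pow_orderOf_eq_one x))
      have hxo : orderOf (x : G ⧸ M) = 2 := by
        rcases (Nat.dvd_prime Nat.prime_two).1 (hx ▸ orderOf_map_dvd (QuotientGroup.mk' M) x) with h | h
        · exact absurd ((QuotientGroup.eq_one_iff x).1 (orderOf_eq_one_iff.1 h)) hxM
        · exact h
      have h1 : Nat.card (G ⧸ M) ≤ N' := hN' (G ⧸ M) (hcore hMn)
        (by rw [← Subgroup.index_eq_card]; exact hidx) (x : G ⧸ M) hxo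
        ((card_centralizer_quotient_le x M).trans (Nat.mul_le_mul hMc hc))
      have h2 : Nat.card G = Nat.card M * Nat.card (G ⧸ M) := by
        rw [← Subgroup.index_eq_card, M.card_mul_index]
      have h3 := Nat.mul_le_mul hMc h1
      rw [← h2, ← hn₀] at h3
      omega

end Cfsg.Agent.H56.Deficiency
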