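import Cfsg.Agent.H56.SingleBlockBound
import Cfsg.Agent.H56.InvolutionCentralizerBound
import Cfsg.Agent.H40.CentralQuotient
import Cfsg.Agent.H40.SecondMain
import Cfsg.Agent.H41.PrincipalSection
import Cfsg.Agent.H41.InducedCentral
import Cfsg.Agent.H44.Codegree
import Mathlib.GroupTheory.FixedPointFree

/-!
# Bounded deficiency class at the prime two

If every non-principal `2`-block has defect less than `r` and the Sylow `2`-subgroups contain an
elementary abelian group of order `2 ^ (r + 1)`, the group order is bounded by a function of the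
Sylow `2`-order.
-/

set_option autoImplicit false
set_option linter.unusedSectionVars false

open scoped ComplexConjugate

namespace Cfsg.Agent.H56.Deficiency

universe u

/-- Every non-principal block has defect less than `r`. -/
def NoHighBlock {G : Type*} [Group G] (p : ℕ) (M : Ideal Cfsg.AlgInt) (r : ℕ) : Prop :=
  ∀ B : Set (Cfsg.IrrCharacter G), Cfsg.IsPBlock M B → B ≠ Cfsg.principalBlock M G →
    Cfsg.blockDefect p B < r

variable {G : Type*} [Group G] [Finite G] {p : ℕ} [hp : Fact p.Prime] {M : Ideal Cfsg.AlgInt}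

/-- Non-principal blocks of centralizers of abelian `p`-subgroups induce non-principal blocks of at
least their defect. -/
theorem noHighBlock_centralizer (hM : Cfsg.IsPModular p M) {r : ℕ}
    (h : NoHighBlock (G := G) p M r) {P : Subgroup G} (hP : IsPGroup p P)
    (hab : P ≤ Subgroup.centralizer (P : Set G)) :
    NoHighBlock (G := Subgroup.centralizer (P : Set G)) p M r := by
  classical
  haveI := hM.2.1
  haveI := Fintype.ofFinite G
  intro b hb hbne
  obtain ⟨B, hind⟩ := Cfsg.Agent.H40.exists_isInducedBlock hM hP hab le_rfl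
    (Subgroup.centralizer_le_normalizer _) hb
  have hBne : B ≠ Cfsg.principalBlock M G := fun e =>
    hbne ((Cfsg.Agent.H41.isInducedBlock_principal_iff _ hM ⟨B, hind⟩).1 (e ▸ hind))
  obtain ⟨D, hD⟩ := Cfsg.Agent.H40.exists_isDefectGroup hM hb
  obtain ⟨E, hE, hDE⟩ := Cfsg.Agent.H40.exists_defectGroup_ge_of_isInducedBlock hM hind hD
  have h1 : Nat.card D ≤ Nat.card E := by
    rw [← Subgroup.card_map_of_injective (f := (Subgroup.centralizer (P : Set G)).subtype) (K := D) (Subgroup.subtype_injective _)]
    exact Subgroup.card_le_of_le hDE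
  rw [Cfsg.Agent.H40.card_defectGroup hM hb hD, Cfsg.Agent.H40.card_defectGroup hM hind.2.1 hE] at h1
  exact lt_of_le_of_lt ((Nat.pow_le_pow_iff_right hp.out.one_lt).1 h1) (h B hind.2.1 hBne)

/-- A normal `p'`-subgroup meeting the centralizer of an abelian `p`-subgroup of order `p ^ r`
produces a non-principal block of defect at least `r`. -/
theorem eq_one_of_noHighBlock (hM : Cfsg.IsPModular p M) {r : ℕ}
    (h : NoHighBlock (G := G) p M r) {P : Subgroup G}
    (hab : P ≤ Subgroup.centralizer (P : Set G)) (hcard : Nat.card P = p ^ r)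
    {N : Subgroup G} [N.Normal] (hN : ¬ p ∣ Nat.card N) {n : G} (hn : n ∈ N)
    (hnP : n ∈ Subgroup.centralizer (P : Set G)) : n = 1 := by
  classical
  haveI := hM.2.1
  haveI := Fintype.ofFinite G
  set C := Subgroup.centralizer (P : Set G) with hC
  haveI := Fintype.ofFinite C
  have hP : IsPGroup p P := IsPGroup.of_card hcard
  by_contra hne
  have hN' : ¬ p ∣ Nat.card (N.subgroupOf C) := fun hd => hN (hd.trans (by
    rw [← Subgroup.card_map_of_injective (f := C.subtype) (K := N.subgroupOf C) C.subtype_injective]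
    exact Subgroup.card_dvd_of_le (by rintro _ ⟨c, hc, rfl⟩; exact hc)))
  obtain ⟨χ, hχ⟩ : ∃ χ : Cfsg.IrrCharacter C, (χ : C → ℂ) ⟨n, hnP⟩ ≠ (χ : C → ℂ) 1 := by
    by_contra hall
    push Not at hall
    have h1 := Cfsg.Agent.H26.column_orthogonality (G := C) (⟨n, hnP⟩ : C) 1
    have h2 := Cfsg.Agent.H26.column_orthogonality (G := C) (1 : C) 1
    rw [Finset.sum_congr rfl fun χ _ => by rw [hall χ], h2] at h1
    simp only [Cfsg.Agent.H26.classIndicator, IsConj.refl, if_true, isConj_one_left,
      isConj_one_right] at h1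
    rw [if_neg (fun e => hne (congrArg Subtype.val e)), mul_zero, mul_one] at h1
    exact Nat.card_pos.ne' (Nat.cast_eq_zero.1 h1)
  have hb := Cfsg.Agent.H41.isPBlock_blockOf (M := M) χ
  have hbne : Cfsg.blockOf M (χ : C → ℂ) ≠ Cfsg.principalBlock M C := fun e => hχ (by
    have := Cfsg.Agent.H41.mul_eq_of_mem_principalBlock hM (N.subgroupOf C) hN'
      (e ▸ Cfsg.Agent.H41.mem_blockOf_self χ) (a := ⟨n, hnP⟩) hn 1
    simpa using this)
  have hlt := noHighBlock_centralizer hM h hP hab _ hb hbne
  obtain ⟨D, hD⟩ := Cfsg.Agent.H40.exists_isDefectGroup hM hb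
  haveI : (P.subgroupOf C).Normal := ⟨fun q hq c => by
    rw [Subgroup.mem_subgroupOf] at hq ⊢
    have hc := Subgroup.mem_centralizer_iff.1 c.2 (q : G) hq
    rwa [Subgroup.coe_mul, Subgroup.coe_mul, Subgroup.coe_inv, ← hc, mul_inv_cancel_right]⟩
  have hle := Subgroup.card_le_of_le (Cfsg.Agent.H40.normal_le_defectGroup hM hb hD
    (Q := P.subgroupOf C) (hP.of_equiv (Subgroup.subgroupOfEquivOfLe hab).symm))
  rw [Nat.card_congr (Subgroup.subgroupOfEquivOfLe hab).toEquiv, hcard,
    Cfsg.Agent.H40.card_defectGroup hM hb hD] at hle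
  exact absurd ((Nat.pow_le_pow_iff_right hp.out.one_lt).1 hle) (not_le.2 hlt)

/-- Dividing out a central subgroup of order `p` lowers the defects by one. -/
theorem noHighBlock_quotient (hM : Cfsg.IsPModular p M) {r : ℕ}
    (h : NoHighBlock (G := G) p M (r + 1)) {Q : Subgroup G} [Q.Normal]
    (hQc : Q ≤ Subgroup.center G) (hQ : Nat.card Q = p) :
    NoHighBlock (G := G ⧸ Q) p M r := by
  classical
  haveI := hM.2.1
  haveI := Fintype.ofFinite G
  haveI := Fintype.ofFinite (G ⧸ Q)
  intro b hb hbne
  obtain ⟨ψ, rfl⟩ := hb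
  set B := Cfsg.blockOf M (Cfsg.Agent.H44.inflate Q ψ : G → ℂ) with hBdef
  have hQp : IsPGroup p Q := IsPGroup.of_card (n := 1) (by rw [hQ, pow_one])
  have hsup : Q ⊔ Subgroup.centralizer (Q : Set G) = ⊤ := eq_top_iff.2 fun g _ =>
    Subgroup.mem_sup_right (Subgroup.mem_centralizer_iff.2 fun q hq =>
      (Subgroup.mem_center_iff.1 (hQc hq) g).symm)
  have hBne : B ≠ Cfsg.principalBlock M G := by
    intro e
    refine hbne ?_
    have h1 : Cfsg.Agent.H44.inflate Q ψ ∈ Cfsg.principalBlock M G :=
      e ▸ Cfsg.Agent.H41.mem_blockOf_self _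
    have h2 : Cfsg.SameBlock M (Cfsg.Agent.H44.inflate Q (Cfsg.Agent.H26.oneIrr (G ⧸ Q)) : G → ℂ)
        (Cfsg.Agent.H44.inflate Q ψ : G → ℂ) := h1
    have h3 := (Cfsg.Agent.H40.sameBlock_inflate_iff hM hQp hsup _ ψ).1 h2
    exact Cfsg.Agent.H41.block_eq_of_mem_of_mem (Cfsg.Agent.H41.isPBlock_blockOf (M := M) ψ)
      (Cfsg.Agent.H41.isPBlock_principalBlock (M := M)) (Cfsg.Agent.H41.mem_blockOf_self ψ) h3
  have hlt := h B (Cfsg.Agent.H41.isPBlock_blockOf _) hBne
  have hcard : (Nat.card G).factorization p = (Nat.card (G ⧸ Q)).factorization p + 1 := by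
    rw [Subgroup.card_eq_card_quotient_mul_card_subgroup Q, hQ,
      Nat.factorization_mul Nat.card_pos.ne' hp.out.ne_zero, Finsupp.add_apply,
      hp.out.factorization_self]
  unfold Cfsg.blockDefect at hlt ⊢
  obtain ⟨φ, hφ, he⟩ := Nat.sInf_mem (Set.Nonempty.image
    (fun χ : Cfsg.IrrCharacter (G ⧸ Q) => (Cfsg.charDegree (χ : G ⧸ Q → ℂ)).factorization p)
    ⟨ψ, Cfsg.Agent.H41.mem_blockOf_self (M := M) ψ⟩)
  have hle : sInf ((fun χ : Cfsg.IrrCharacter G => (Cfsg.charDegree (χ : G → ℂ)).factorization p) '' B) ≤
      (Cfsg.charDegree (φ : G ⧸ Q → ℂ)).factorization p :=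
    Nat.sInf_le ⟨Cfsg.Agent.H44.inflate Q φ,
      (Cfsg.Agent.H40.sameBlock_inflate_iff hM hQp hsup ψ φ).2 hφ, by
        simp only [Cfsg.Agent.H44.charDegree_inflate]⟩
  rw [← he]
  simp only at hle ⊢
  have hdle : (Cfsg.charDegree (φ : G ⧸ Q → ℂ)).factorization p ≤
      (Nat.card (G ⧸ Q)).factorization p :=
    (Nat.factorization_le_iff_dvd (Cfsg.Agent.H42.charDegree_pos φ).ne' Nat.card_pos.ne').2
      (Cfsg.Agent.H44.charDegree_dvd_card φ) p
  omega

section Coprime

/-- An elementary abelian `2`-group `E` normalizing a nontrivial group `N` of odd order: a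
subgroup of index two in `E` has a nontrivial fixed point. -/
theorem exists_index_two_fixed {G : Type*} [Group G] [Finite G] (n : ℕ) :
    ∀ E N : Subgroup G, Nat.card E = 2 ^ (n + 1) → E ≤ Subgroup.centralizer (E : Set G) →
    (∀ e ∈ E, e * e = 1) → E ≤ Subgroup.normalizer (N : Set G) → Odd (Nat.card N) → N ≠ ⊥ →
    ∃ P : Subgroup G, P ≤ E ∧ Nat.card P = 2 ^ n ∧ N ⊓ Subgroup.centralizer (P : Set G) ≠ ⊥ := by
  induction n with
  | zero =>
    intro E N _ _ _ _ _ hN
    refine ⟨⊥, bot_le, by simp, ?_⟩
    rwa [inf_eq_left.2 (fun g _ => Subgroup.mem_centralizer_iff.2 fun q hq => by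
      rw [Subgroup.mem_bot.1 hq, one_mul, mul_one])]
  | succ n ih =>
    intro E N hcard hab hsq hEN hodd hN
    classical
    -- an involution of `E` with nontrivial fixed points
    obtain ⟨e, heE, he1, hfix⟩ : ∃ e ∈ E, e ≠ 1 ∧ N ⊓ Subgroup.centralizer ({e} : Set G) ≠ ⊥ := by
      by_contra hall
      push Not at hall
      have hinv : ∀ e ∈ E, e ≠ 1 → ∀ g ∈ N, e * g * e⁻¹ = g⁻¹ := by
        intro e heE he1
        have hmem : ∀ g ∈ N, e * g * e⁻¹ ∈ N := fun g hg =>
          (Subgroup.mem_normalizer_iff.1 (hEN heE) g).1 hg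
        let φ : N →* N :=
          { toFun := fun g => ⟨e * g * e⁻¹, hmem g g.2⟩
            map_one' := Subtype.ext (by simp)
            map_mul' := fun a b => Subtype.ext (by simp [mul_assoc]) }
        have hfp : MonoidHom.FixedPointFree φ := fun g hg => by
          have h1 : (g : G) ∈ N ⊓ Subgroup.centralizer ({e} : Set G) := by
            refine ⟨g.2, Subgroup.mem_centralizer_singleton_iff.2 ?_⟩
            have : e * (g : G) * e⁻¹ = g := congrArg Subtype.val hg
            calc (g : G) * e = e * (g : G) * e⁻¹ * e := by rw [this]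
              _ = e * g := by group
          rw [hall e heE he1, Subgroup.mem_bot] at h1
          exact Subtype.ext h1
        have hinvol : Function.Involutive φ := fun g => Subtype.ext (by
          show e * (e * g * e⁻¹) * e⁻¹ = g
          rw [show e * (e * (g : G) * e⁻¹) * e⁻¹ = (e * e) * g * (e * e)⁻¹ by group, hsq e heE]
          simp)
        intro g hg
        exact congrArg Subtype.val (congrFun (hfp.coe_eq_inv_of_involutive hinvol) ⟨g, hg⟩)
      obtain ⟨g, hg, hg1⟩ := (Subgroup.ne_bot_iff_exists_ne_one.1 hN : ∃ a : N, a ≠ 1)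
        |> fun ⟨a, ha⟩ => (⟨(a : G), a.2, fun e => ha (Subtype.ext e)⟩ :
          ∃ g : G, g ∈ N ∧ g ≠ 1)
      have h4 : 2 ^ 2 ≤ Nat.card E := hcard ▸ Nat.pow_le_pow_right two_pos (by omega)
      obtain ⟨u, hu, hu1⟩ : ∃ u ∈ E, u ≠ 1 := by
        by_contra hc
        push Not at hc
        rw [(Subgroup.eq_bot_iff_forall E).2 hc, Subgroup.card_bot] at h4
        omega
      obtain ⟨v, hv, hv1, hvu⟩ : ∃ v ∈ E, v ≠ 1 ∧ v ≠ u := by
        by_contra hc
        push Not at hc
        have : Nat.card E ≤ 2 := by
          haveI := Fintype.ofFinite G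
          rw [Nat.card_eq_fintype_card, Fintype.card_subtype]
          refine (Finset.card_le_card (t := {1, u}) fun y hy => ?_).trans Finset.card_le_two
          by_cases hy1 : y = 1
          · simp [hy1]
          · simp [hc y (Finset.mem_filter.1 hy).2 hy1]
        omega
      have huv : u * v ≠ 1 := fun e => hvu (by
        rw [← mul_right_inj u, e, hsq u hu])
      have h1 : u * v * g * (u * v)⁻¹ = g⁻¹ := hinv _ (E.mul_mem hu hv) huv g hg
      have h2 : u * v * g * (u * v)⁻¹ = g := by
        calc u * v * g * (u * v)⁻¹ = u * (v * g * v⁻¹) * u⁻¹ := by group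
          _ = u * g⁻¹ * u⁻¹ := by rw [hinv v hv hv1 g hg]
          _ = (u * g * u⁻¹)⁻¹ := by group
          _ = g := by rw [hinv u hu hu1 g hg, inv_inv]
      rw [h2] at h1
      have hsq1 : orderOf g ∣ 2 := orderOf_dvd_of_pow_eq_one (by rw [pow_two]; nth_rw 2 [h1]; exact mul_inv_cancel g)
      exact hg1 (orderOf_eq_one_iff.1 (Nat.eq_one_of_dvd_coprimes (Nat.coprime_two_left.2 hodd) hsq1
        (Subgroup.orderOf_dvd_natCard N hg)))
    -- a complement
    obtain ⟨K, hKmax⟩ := Set.Finite.exists_maximal
      (Set.toFinite {K : Subgroup G | K ≤ E ∧ e ∉ K}) ⟨⊥, bot_le, by simpa using he1⟩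
    obtain ⟨⟨hKE, heK⟩, hKmax⟩ := hKmax
    have hsplit : ∀ y ∈ E, y ∈ K ∨ e * y ∈ K := by
      intro y hy
      by_contra hc
      rw [not_or] at hc
      let K' : Subgroup G :=
        { carrier := {g | g ∈ K ∨ g * y ∈ K}
          one_mem' := Or.inl K.one_mem
          mul_mem' := fun {a b} ha hb => by
            have hyy := hsq y hy
            rcases ha with ha | ha <;> rcases hb with hb | hb
            · exact Or.inl (K.mul_mem ha hb)
            · exact Or.inr (by rw [mul_assoc]; exact K.mul_mem ha hb)
            · refine Or.inr ?_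
              have hcy : b * y = y * b := (Subgroup.mem_centralizer_iff.1 (hab hy) b (hKE hb)).symm ▸
                (Subgroup.mem_centralizer_iff.1 (hab hy) b (hKE hb))
              rw [mul_assoc, hcy, ← mul_assoc]
              exact K.mul_mem ha hb
            · refine Or.inl ?_
              have hcy : b * y = y * b := by
                have hbE : b ∈ E := by simpa [mul_assoc, hyy] using E.mul_mem (hKE hb) hy
                exact Subgroup.mem_centralizer_iff.1 (hab hy) b hbE
              have := K.mul_mem ha hb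
              rw [hcy, show a * y * (y * b) = a * (y * y) * b by group, hyy, mul_one] at this
              exact this
          inv_mem' := fun {a} ha => by
            have hyy := hsq y hy
            rcases ha with ha | ha
            · exact Or.inl (K.inv_mem ha)
            · refine Or.inr ?_
              have hyinv : y⁻¹ = y := inv_eq_of_mul_eq_one_right hyy
              have hbE : a ∈ E := by simpa [mul_assoc, hyy] using E.mul_mem (hKE ha) hy
              have hcy : a⁻¹ * y = y * a⁻¹ :=
                Subgroup.mem_centralizer_iff.1 (hab hy) a⁻¹ (E.inv_mem hbE)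
              have := K.inv_mem ha
              rw [mul_inv_rev, hyinv] at this
              rwa [hcy] }
      have hyK' : y ∈ K' := Or.inr (by rw [hsq y hy]; exact K.one_mem)
      have h1 : K' ≤ K := hKmax ⟨fun g hg => by
          rcases hg with hg | hg
          · exact hKE hg
          · simpa [mul_assoc, hsq y hy] using E.mul_mem (hKE hg) hy,
        fun he' => he'.elim heK hc.2⟩ fun g hg => Or.inl hg
      exact hc.1 (h1 hyK')
    have hKcard : Nat.card K = 2 ^ (n + 1) := by
      haveI := Fintype.ofFinite G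
      set sK := Finset.univ.filter fun g : G => g ∈ K
      have hE : (Finset.univ.filter fun g : G => g ∈ E) = sK ∪ sK.image (e * ·) := by
        ext y
        simp only [Finset.mem_union, Finset.mem_image, Finset.mem_filter, Finset.mem_univ,
          true_and, sK]
        constructor
        · intro hy
          rcases hsplit y hy with h | h
          · exact Or.inl h
          · exact Or.inr ⟨e * y, h, by rw [← mul_assoc, hsq e heE, one_mul]⟩
        · rintro (h | ⟨k, hk, rfl⟩)
          · exact hKE h
          · exact E.mul_mem heE (hKE hk)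
      have hd : Disjoint sK (sK.image (e * ·)) := Finset.disjoint_left.2 fun y hy hy' => by
        obtain ⟨k, hk, rfl⟩ := Finset.mem_image.1 hy'
        have h1 := K.mul_mem (Finset.mem_filter.1 hy).2 (K.inv_mem (Finset.mem_filter.1 hk).2)
        exact heK (by simpa using h1)
      have hc := congrArg Finset.card hE
      rw [Finset.card_union_of_disjoint hd, Finset.card_image_of_injective _ (mul_right_injective e),
        ← Fintype.card_subtype, ← Fintype.card_subtype, ← Nat.card_eq_fintype_card,
        ← Nat.card_eq_fintype_card, hcard, pow_succ] at hc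
      omega
    obtain ⟨P, hPK, hPcard, hPfix⟩ := ih K (N ⊓ Subgroup.centralizer ({e} : Set G)) hKcard
      (hKE.trans (hab.trans (Subgroup.centralizer_le hKE))) (fun g hg => hsq g (hKE hg))
      (fun k hk => Subgroup.mem_normalizer_iff.2 fun g => by
        have h1 := Subgroup.mem_normalizer_iff.1 (hEN (hKE hk)) g
        have hke : k * e = e * k := Subgroup.mem_centralizer_iff.1 (hab heE) k (hKE hk)
        have hkey : k * g * k⁻¹ * e = e * (k * g * k⁻¹) ↔ g * e = e * g := by
          have hke' : k⁻¹ * e = e * k⁻¹ :=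
            Subgroup.mem_centralizer_iff.1 (hab heE) k⁻¹ (E.inv_mem (hKE hk))
          rw [mul_assoc _ k⁻¹, hke', show k * g * (e * k⁻¹) = k * (g * e) * k⁻¹ by group,
            ← mul_assoc e, show e * (k * g) = e * k * g from (mul_assoc _ _ _).symm, ← hke,
            show k * e * g * k⁻¹ = k * (e * g) * k⁻¹ by group, mul_left_inj, mul_right_inj]
        simp only [Subgroup.mem_inf, Subgroup.mem_centralizer_singleton_iff, h1, hkey])
      (hodd.of_dvd_nat (Subgroup.card_dvd_of_le inf_le_left)) hfix
    set Q : Subgroup G :=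
      { carrier := {g | g ∈ P ∨ e * g ∈ P}
        one_mem' := Or.inl P.one_mem
        mul_mem' := fun {a b} ha hb => by
          have hee := hsq e heE
          rcases ha with ha | ha <;> rcases hb with hb | hb
          · exact Or.inl (P.mul_mem ha hb)
          · refine Or.inr ?_
            have hc : a * e = e * a := Subgroup.mem_centralizer_iff.1 (hab heE) a (hKE (hPK ha))
            rw [show e * (a * b) = e * a * b from (mul_assoc _ _ _).symm, ← hc, mul_assoc]
            exact P.mul_mem ha hb
          · exact Or.inr (by rw [← mul_assoc]; exact P.mul_mem ha hb)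
          · refine Or.inl ?_
            have hc : a * e = e * a := by
              have haE : a ∈ E := by
                simpa [← mul_assoc, hee] using E.mul_mem heE (hKE (hPK ha))
              exact Subgroup.mem_centralizer_iff.1 (hab heE) a haE
            have := P.mul_mem ha hb
            rw [← hc, show a * e * (e * b) = a * (e * e) * b by group, hee, mul_one] at this
            exact this
        inv_mem' := fun {a} ha => by
          have hee := hsq e heE
          rcases ha with ha | ha
          · exact Or.inl (P.inv_mem ha)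
          · refine Or.inr ?_
            have hei : e⁻¹ = e := inv_eq_of_mul_eq_one_right hee
            have haE : a ∈ E := by simpa [← mul_assoc, hee] using E.mul_mem heE (hKE (hPK ha))
            have := P.inv_mem ha
            rw [mul_inv_rev, hei,
              Subgroup.mem_centralizer_iff.1 (hab heE) a⁻¹ (E.inv_mem haE)] at this
            exact this }
    refine ⟨Q, ?_, ?_, ?_⟩
    · rintro g (hg | hg)
      · exact hKE (hPK hg)
      · simpa [← mul_assoc, hsq e heE] using E.mul_mem heE (hKE (hPK hg))
    · haveI := Fintype.ofFinite G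
      set sP := Finset.univ.filter fun g : G => g ∈ P
      have hQ : (Finset.univ.filter fun g : G => g ∈ Q) = sP ∪ sP.image (e * ·) := by
        ext y
        simp only [Finset.mem_union, Finset.mem_image, Finset.mem_filter, Finset.mem_univ,
          true_and, sP]
        constructor
        · rintro (h | h)
          · exact Or.inl h
          · exact Or.inr ⟨e * y, h, by rw [← mul_assoc, hsq e heE, one_mul]⟩
        · rintro (h | ⟨k, hk, rfl⟩)
          · exact Or.inl h
          · exact Or.inr (by rw [← mul_assoc, hsq e heE, one_mul]; exact hk)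
      have hd : Disjoint sP (sP.image (e * ·)) := Finset.disjoint_left.2 fun y hy hy' => by
        obtain ⟨k, hk, rfl⟩ := Finset.mem_image.1 hy'
        have h1 := K.mul_mem (hPK (Finset.mem_filter.1 hy).2) (K.inv_mem (hPK (Finset.mem_filter.1 hk).2))
        exact heK (by simpa using h1)
      rw [Nat.card_eq_fintype_card, Fintype.card_subtype, hQ, Finset.card_union_of_disjoint hd,
        Finset.card_image_of_injective _ (mul_right_injective e), ← Fintype.card_subtype,
        ← Nat.card_eq_fintype_card, hPcard, pow_succ]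
      ring
    · intro h0
      refine hPfix ((Subgroup.eq_bot_iff_forall _).2 fun g hg =>
        (Subgroup.eq_bot_iff_forall _).1 h0 g ⟨hg.1.1, Subgroup.mem_centralizer_iff.2 fun q hq => ?_⟩)
      rcases hq with hq | hq
      · exact Subgroup.mem_centralizer_iff.1 hg.2 q hq
      · have h1 : e * q * g = g * (e * q) := Subgroup.mem_centralizer_iff.1 hg.2 _ hq
        have h2 : g * e = e * g := Subgroup.mem_centralizer_singleton_iff.1 hg.1.2
        rw [← mul_assoc, h2, mul_assoc, mul_assoc] at h1
        exact mul_left_cancel h1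

end Coprime

/-- The order bound for groups of deficiency class `r` at the prime two. -/
theorem exists_bound_of_noHighBlock (r : ℕ) : ∀ a : ℕ, ∃ N : ℕ, ∀ (G : Type u) [Group G] [Finite G]
    (M : Ideal Cfsg.AlgInt), Cfsg.IsPModular 2 M → (Nat.card G).factorization 2 ≤ a →
    NoHighBlock (G := G) 2 M r →
    (∃ E : Subgroup G, E ≤ Subgroup.centralizer (E : Set G) ∧ (∀ x ∈ E, x * x = 1) ∧
      Nat.card E = 2 ^ (r + 1)) → Nat.card G ≤ N := by
  haveI : Fact (Nat.Prime 2) := ⟨Nat.prime_two⟩
  induction r with
  | zero =>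
    intro a
    obtain ⟨N, hN⟩ := exists_bound_of_single_block.{u} 2 a
    refine ⟨N, fun G _ _ M hM ha h _ => hN G M hM ha fun B hB => ?_⟩
    by_contra hne
    exact Nat.not_lt_zero _ (h B hB hne)
  | succ r ih =>
    intro a
    obtain ⟨N', hN'⟩ := ih a
    obtain ⟨N, hN⟩ := exists_bound_of_centralizer.{u} a (2 * N')
    refine ⟨N, fun G _ _ M hM ha h hE => ?_⟩
    obtain ⟨E, hab, hsq, hcard⟩ := hE
    classical
    have hcore : OddCoreFree G := by
      intro O hO hodd
      by_contra hne
      haveI := hO
      obtain ⟨P, hPE, hPcard, hfix⟩ := exists_index_two_fixed (r + 1) E O hcard hab hsq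
        (by rw [Subgroup.normalizer_eq_top]; exact le_top) hodd hne
      refine hfix ((Subgroup.eq_bot_iff_forall _).2 fun g hg => ?_)
      exact eq_one_of_noHighBlock hM h (hPE.trans (hab.trans (Subgroup.centralizer_le hPE))) hPcard
        (by rw [← even_iff_two_dvd, Nat.not_even_iff_odd]; exact hodd) hg.1 hg.2
    obtain ⟨x, hxE, hx1⟩ : ∃ x ∈ E, x ≠ 1 := by
      by_contra hc
      push Not at hc
      rw [(Subgroup.eq_bot_iff_forall E).2 hc, Subgroup.card_bot] at hcard
      exact absurd hcard.symm (Nat.one_lt_pow (by omega) one_lt_two).ne'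
    have hxo : orderOf x = 2 := orderOf_eq_prime (by rw [pow_two]; exact hsq x hxE) hx1
    refine hN G hcore ha x hxo ?_
    set P := Subgroup.zpowers x with hP
    have hPcard : Nat.card P = 2 := by rw [hP, Nat.card_zpowers, hxo]
    have hPE : P ≤ E := Subgroup.zpowers_le.2 hxE
    have hPab : P ≤ Subgroup.centralizer (P : Set G) :=
      hPE.trans (hab.trans (Subgroup.centralizer_le hPE))
    set C := Subgroup.centralizer (P : Set G) with hC
    have hCx : Subgroup.centralizer ({x} : Set G) = C := by
      rw [hC, hP, Subgroup.zpowers_eq_closure, Subgroup.centralizer_closure]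
    haveI : (P.subgroupOf C).Normal := ⟨fun q hq c => by
      rw [Subgroup.mem_subgroupOf] at hq ⊢
      have hc := Subgroup.mem_centralizer_iff.1 c.2 (q : G) hq
      rwa [Subgroup.coe_mul, Subgroup.coe_mul, Subgroup.coe_inv, ← hc, mul_inv_cancel_right]⟩
    have hQcard : Nat.card (P.subgroupOf C) = 2 := by
      rw [Nat.card_congr (Subgroup.subgroupOfEquivOfLe hPab).toEquiv, hPcard]
    have hQc : P.subgroupOf C ≤ Subgroup.center C := fun q hq =>
      Subgroup.mem_center_iff.2 fun c => Subtype.ext
        (Subgroup.mem_centralizer_iff.1 c.2 (q : G) hq).symm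
    have h1 := noHighBlock_quotient hM (noHighBlock_centralizer hM h
      (IsPGroup.of_card (n := 1) (by rw [hPcard, pow_one])) hPab) hQc hQcard
    have hEC : E ≤ C := hab.trans (Subgroup.centralizer_le hPE)
    set π := QuotientGroup.mk' (P.subgroupOf C)
    have hker : P.subgroupOf C ≤ E.subgroupOf C := fun c hc => hPE hc
    have h2 := hN' (C ⧸ P.subgroupOf C) M hM
      (le_trans ((Nat.factorization_le_iff_dvd Nat.card_pos.ne' Nat.card_pos.ne').2
        ((Subgroup.card_quotient_dvd_card _).trans (Subgroup.card_subgroup_dvd_card C)) 2) ha) h1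
      ⟨(E.subgroupOf C).map π, ?_, ?_, ?_⟩
    · rw [hCx, Subgroup.card_eq_card_quotient_mul_card_subgroup (P.subgroupOf C), hQcard, mul_comm]
      exact Nat.mul_le_mul_left 2 h2
    · rintro _ ⟨u, hu, rfl⟩
      rw [Subgroup.mem_centralizer_iff]
      rintro _ ⟨v, hv, rfl⟩
      rw [← map_mul, ← map_mul]
      exact congrArg π (Subtype.ext (Subgroup.mem_centralizer_iff.1 (hab hu) (v : G) hv))
    · rintro _ ⟨u, hu, rfl⟩
      rw [← map_mul, ← map_one π]
      exact congrArg π (Subtype.ext (hsq (u : G) hu))
    · have h3 := Subgroup.relIndex_comap ⊥ π (E.subgroupOf C)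
      rw [MonoidHom.comap_bot, QuotientGroup.ker_mk', Subgroup.relIndex_bot_left] at h3
      have h4 := Subgroup.relIndex_mul_relIndex ⊥ (P.subgroupOf C) (E.subgroupOf C) bot_le hker
      rw [Subgroup.relIndex_bot_left, Subgroup.relIndex_bot_left, h3, hQcard,
        Nat.card_congr (Subgroup.subgroupOfEquivOfLe hEC).toEquiv, hcard, pow_succ'] at h4
      exact Nat.eq_of_mul_eq_mul_left two_pos h4

end Cfsg.Agent.H56.Deficiency
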