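import Cfsg.Agent.H56.KleinIsometryBlock
import Cfsg.Agent.H41.DefectLocal
import Cfsg.Agent.H22.PairNilpotentDict
import Cfsg.Prelude.Def_BlockLocal

/-!
# The perfect isometry of a block with a Klein four defect group and its Brauer correspondent
-/

set_option autoImplicit false

open scoped ComplexConjugate

namespace Cfsg.Agent.H56

open Cfsg.Agent.H22 (IsMaxEl elTop el emb cj pairStab)
open Cfsg.Agent.H41 (ResField)
open Cfsg.Agent.H42 (blockFinset mem_blockFinset)
open Cfsg.Agent.H43 (irrCongr)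

universe u

variable {G : Type u} [Group G] [Finite G] {M : Ideal Cfsg.AlgInt}

/-- A block with Klein four defect group has the rank of its Brauer correspondent. -/
theorem blockRank_eq_of_klein [Fact (Nat.Prime 2)] [M.IsMaximal] [CharP (ResField M) 2]
    (hM : Cfsg.IsPModular 2 M) {B : Set (Cfsg.IrrCharacter G)} {P : Subgroup G}
    (hPD : Cfsg.IsDefectGroup 2 M B P) (h4 : Nat.card P = 4) (hsq : ∀ x ∈ P, x * x = 1)
    {N : Subgroup G} (hN : N = Subgroup.normalizer (P : Set G))
    {c : Set (Cfsg.IrrCharacter N)} (hcD : Cfsg.IsDefectGroup 2 M c (P.subgroupOf N))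
    (hc : Cfsg.IsInducedBlock M N c B) :
    Cfsg.blockRank 2 c = Cfsg.blockRank 2 B := by
  classical
  have : Fintype G := Fintype.ofFinite G
  have : Fintype N := Fintype.ofFinite N
  have hPN : P ≤ N := hN ▸ Subgroup.le_normalizer
  have h4Q : Nat.card (P.subgroupOf N) = 4 := by rw [Nat.card_congr (Subgroup.subgroupOfEquivOfLe hPN).toEquiv, h4]
  have hsqQ : ∀ x ∈ (P.subgroupOf N), x * x = 1 := fun x hx =>
    Subtype.ext (hsq x (Subgroup.mem_subgroupOf.1 hx))
  have habQ := H40.comm_of_exponent_two hsqQ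
  have hQp : IsPGroup 2 (P.subgroupOf N) := H40.isPGroup_of_isDefectGroup hcD
  -- a root of the correspondent, carried to `G`
  obtain ⟨c₀, hc₀⟩ := H41.exists_inducing_block_of_subConj hM hQp
    (fun y hy => Subgroup.mem_centralizer_iff.2 fun x hx => habQ x hx y hy) le_rfl
    (Subgroup.centralizer_le_normalizer _) hc.1 hcD (H40.SubConj.refl (P.subgroupOf N))
  have hmap : (Subgroup.centralizer (P.subgroupOf N : Set N)).map N.subtype = (Subgroup.centralizer (P : Set G)) := by
    ext x
    constructor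
    · rintro ⟨n, hn, rfl⟩
      exact (H40.mem_centralizer_subgroupOf_iff hPN).1 hn
    · intro hx
      exact ⟨⟨x, hN ▸ Subgroup.centralizer_le_normalizer _ hx⟩,
        (H40.mem_centralizer_subgroupOf_iff hPN).2 hx, rfl⟩
  let e : (Subgroup.centralizer (P.subgroupOf N : Set N)) ≃* (Subgroup.centralizer (P : Set G)) := ((Subgroup.centralizer (P.subgroupOf N : Set N)).equivMapOfInjective N.subtype N.subtype_injective).trans
    (MulEquiv.subgroupCongr hmap)
  have he : ∀ x : (Subgroup.centralizer (P.subgroupOf N : Set N)), ((e x : (Subgroup.centralizer (P : Set G))) : G) = ((x : N) : G) := fun x => rfl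
  set b := irrCongr e.symm '' c₀ with hb
  have hbB : Cfsg.IsInducedBlock M (Subgroup.centralizer (P : Set G)) b B := by
    obtain ⟨ξ, hξ⟩ := H41.IsPBlock.nonempty hc₀.1
    obtain ⟨ζ, hζ⟩ := H41.IsPBlock.nonempty hc.1
    obtain ⟨χ, hχ⟩ := H41.IsPBlock.nonempty hc.2.1
    refine (H40.isInducedBlock_iff (H22.isPBlock_image e.symm hc₀.1) hc.2.1
      (Set.mem_image_of_mem _ hξ) hχ).2 fun z => ?_
    rw [← H40.omegaBar_restrictZ_restrictZ N (Subgroup.centralizer (P : Set G)) (Subgroup.centralizer (P.subgroupOf N : Set N)) e he (irrCongr e.symm ξ) z,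
      show irrCongr e (irrCongr e.symm ξ) = ξ from Subtype.ext (funext fun x => by
        simp only [H43.irrCongr_apply, MulEquiv.symm_apply_apply]),
      H40.omegaBar_restrictZ_of_isInducedBlock hc₀ hξ hζ,
      H40.omegaBar_restrictZ_of_isInducedBlock hc hζ hχ]
  -- the two maximal pairs and their stabilisers
  have hm := H40.exists_isMaxEl hM hc.2.1 hPD (H40.comm_of_exponent_two hsq) hbB
  have hm' := H40.exists_isMaxEl hM hc.1 hcD habQ hc₀
  have hel : emb N.subtype (el M (Subgroup.centralizer (P.subgroupOf N : Set N)) c₀) = el M (Subgroup.centralizer (P : Set G)) b := by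
    refine H40.ext_coeff fun x => ?_
    by_cases hx : x ∈ (Subgroup.centralizer (P : Set G))
    · obtain ⟨y, hy⟩ := e.surjective ⟨x, hx⟩
      have hxy : x = N.subtype (y : N) := by
        rw [Subgroup.coe_subtype, ← he y, hy]
      have hR : (el M (Subgroup.centralizer (P : Set G)) b).coeff x = H22.resT M (Cfsg.blockCoeff b ⟨x, hx⟩) := by
        rw [H22.coeff_el, Cfsg.subgroupBlockCoeff, dif_pos hx]
      rw [hR]
      conv_lhs => rw [hxy]
      rw [H22.coeff_emb_apply N.subtype_injective, H22.coeff_el,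
        Cfsg.subgroupBlockCoeff, dif_pos y.2, hb, H22.blockCoeff_image]
      congr 2
      refine e.injective ?_
      rw [MulEquiv.apply_symm_apply]
      exact Subtype.ext ((he _).trans hxy.symm)
    · rw [H22.coeff_el, Cfsg.subgroupBlockCoeff, dif_neg hx, H22.resT_zero]
      by_cases hxN : x ∈ N
      · rw [show x = N.subtype ⟨x, hxN⟩ from rfl, H22.coeff_emb_apply N.subtype_injective,
          H22.coeff_el, Cfsg.subgroupBlockCoeff, dif_neg, H22.resT_zero]
        exact fun h => hx ((H40.mem_centralizer_subgroupOf_iff hPN).1 h)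
      · exact H22.coeff_emb_notMem _ (by rwa [N.range_subtype])
  have hQn : (P.subgroupOf N).Normal := Subgroup.normal_subgroupOf_of_le_normalizer hN.le
  have hT : (pairStab (P.subgroupOf N) (el M (Subgroup.centralizer (P.subgroupOf N : Set N)) c₀)).map N.subtype = pairStab P (el M (Subgroup.centralizer (P : Set G)) b) := by
    rw [← hel]
    ext g
    constructor
    · rintro ⟨n, hn, rfl⟩
      refine ⟨hN ▸ n.2, ?_⟩
      show cj (N.subtype n) (emb N.subtype _) = emb N.subtype _
      rw [H22.cj_emb N.subtype_injective, show cj n (el M (Subgroup.centralizer (P.subgroupOf N : Set N)) c₀) = el M (Subgroup.centralizer (P.subgroupOf N : Set N)) c₀ from hn.2]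
    · rintro ⟨hgN', hg⟩
      have hgN : g ∈ N := hN ▸ hgN'
      refine ⟨⟨g, hgN⟩, ⟨?_, ?_⟩, rfl⟩
      · show (⟨g, hgN⟩ : N) ∈ Subgroup.normalizer ((P.subgroupOf N) : Set N)
        rw [Subgroup.normalizer_eq_top]
        exact Subgroup.mem_top _
      · show cj (⟨g, hgN⟩ : N) (el M (Subgroup.centralizer (P.subgroupOf N : Set N)) c₀) = el M (Subgroup.centralizer (P.subgroupOf N : Set N)) c₀
        refine H22.emb_injective N.subtype_injective ?_
        rw [← H22.cj_emb N.subtype_injective]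
        exact hg
  obtain ⟨-, -, h1⟩ := H40.klein_four_invariants hM hc.2.1 hm hPD h4 hsq
  obtain ⟨-, -, h2⟩ := H40.klein_four_invariants hM hc.1 hm' hcD h4Q hsqQ
  rw [h1, h2, ← hT, ← hmap,
    Subgroup.relIndex_map_map_of_injective _ _ N.subtype_injective]

/-- A block with Klein four defect group is perfectly isometric to its Brauer correspondent. -/
theorem exists_klein_perfectIsometry (hM : Cfsg.IsPModular 2 M) {B : Set (Cfsg.IrrCharacter G)}
    (hB : Cfsg.IsPBlock M B) {P : Subgroup G} (hPD : Cfsg.IsDefectGroup 2 M B P)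
    (hV : IsKleinFour P) {N : Subgroup G} (hN : N = Subgroup.normalizer (P : Set G))
    {c : Set (Cfsg.IrrCharacter N)} (hcD : Cfsg.IsDefectGroup 2 M c (P.subgroupOf N))
    (hc : Cfsg.IsInducedBlock M N c B) :
    ∃ (I : Cfsg.IrrCharacter N → Cfsg.IrrCharacter G) (ε : Cfsg.IrrCharacter N → ℤ),
      Cfsg.IsPerfectIsometry 2 M c B I ε := by
  classical
  have : Fact (Nat.Prime 2) := ⟨Nat.prime_two⟩
  have := hM.2.1
  have := H41.IsPModular.charP hM
  have : Fintype G := Fintype.ofFinite G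
  have h4 : Nat.card P = 4 := hV.card_four
  have hsq : ∀ x ∈ P, x * x = 1 := fun x hx => by
    have h := Monoid.pow_exponent_eq_one (⟨x, hx⟩ : P)
    rw [hV.exponent_two, sq] at h
    exact congrArg Subtype.val h
  have : Fintype N := Fintype.ofFinite N
  have hPN : P ≤ N := hN ▸ Subgroup.le_normalizer
  have h4Q : Nat.card (P.subgroupOf N) = 4 := by
    rw [Nat.card_congr (Subgroup.subgroupOfEquivOfLe hPN).toEquiv, h4]
  have hsqQ : ∀ x ∈ P.subgroupOf N, x * x = 1 := fun x hx =>
    Subtype.ext (hsq x (Subgroup.mem_subgroupOf.1 hx))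
  have hl := blockRank_eq_of_klein hM hPD h4 hsq hN hcD hc
  obtain ⟨hcardB, -⟩ := card_eq_four_and_height hM hB hPD h4 hsq
  obtain ⟨hcardc, -⟩ := card_eq_four_and_height hM hc.1 hcD h4Q hsqQ
  obtain ⟨wB, hwB⟩ := exists_signData hM hB hPD h4 hsq
  obtain ⟨wc, hwc⟩ := exists_signData hM hc.1 hcD h4Q hsqQ
  -- the bijection
  let f := Finset.equivOfCardEq (hcardc.trans hcardB.symm)
  obtain ⟨χ₀, -⟩ := H41.IsPBlock.nonempty hB
  let I : Cfsg.IrrCharacter N → Cfsg.IrrCharacter G := fun η =>
    if h : η ∈ blockFinset c then ((f ⟨η, h⟩ : ↥(blockFinset B)) : Cfsg.IrrCharacter G) else χ₀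
  have hI : ∀ η (h : η ∈ blockFinset c), I η = (f ⟨η, h⟩ : Cfsg.IrrCharacter G) :=
    fun η h => dif_pos h
  have hImem : ∀ η ∈ blockFinset c, I η ∈ blockFinset B := fun η h => by
    rw [hI η h]; exact (f ⟨η, h⟩).2
  have hIinj : ∀ η ∈ blockFinset c, ∀ η' ∈ blockFinset c, I η = I η' → η = η' := by
    intro η h η' h' e
    rw [hI η h, hI η' h'] at e
    exact congrArg Subtype.val (f.injective (Subtype.ext e))
  have hIsurj : ∀ χ ∈ blockFinset B, ∃ η ∈ blockFinset c, I η = χ := fun χ h =>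
    ⟨f.symm ⟨χ, h⟩, (f.symm ⟨χ, h⟩).2, by rw [hI _ (f.symm ⟨χ, h⟩).2, Subtype.coe_eta,
      Equiv.apply_symm_apply]⟩
  have hre : ∀ {A : Type} [AddCommMonoid A] (F : Cfsg.IrrCharacter G → A),
      ∑ η ∈ blockFinset c, F (I η) = ∑ χ ∈ blockFinset B, F χ := fun {A} _ F =>
    Finset.sum_bij (fun η _ => I η) hImem (fun η h η' h' => hIinj η h η' h')
      (fun χ h => by obtain ⟨η, h1, h2⟩ := hIsurj χ h; exact ⟨η, h1, h2⟩) (fun _ _ => rfl)
  let ε : Cfsg.IrrCharacter N → ℤ := fun η => wc η * wB (I η)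
  have hmc : ∀ {η}, η ∈ blockFinset c → η ∈ c := fun h => mem_blockFinset.1 h
  have hmB : ∀ {η}, η ∈ blockFinset c → I η ∈ B := fun h => mem_blockFinset.1 (hImem _ h)
  set μ := Cfsg.signedBijectionKernel c I ε with hμ
  have hμe : ∀ x y, μ x y =
      ∑ η ∈ blockFinset c, (ε η : ℂ) * (I η : G → ℂ) x * (η : N → ℂ) y := fun x y => by
    rw [hμ, Cfsg.signedBijectionKernel, finsum_mem_eq_finite_toFinset_sum _ (Set.toFinite _)]
    exact Finset.sum_congr (by ext η; simp [mem_blockFinset]) fun _ _ => rfl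
  -- values on mixed pairs
  have hmix : ∀ (x : G) (y : N), ¬ (¬ 2 ∣ orderOf x ↔ ¬ 2 ∣ orderOf y) → μ x y = 0 := by
    intro x y hxy
    have hc' := hwc.prop y
    have hc0 := hwc.zero y
    rw [hl] at hc' hc0
    by_cases hx : (Cfsg.blockRank 2 B = 1 ↔ ¬ 2 ∣ orderOf x)
    · have hy : ¬ (Cfsg.blockRank 2 B = 1 ↔ ¬ 2 ∣ orderOf y) := fun hy => hxy (hx.symm.trans hy)
      calc μ x y = signAvg B wB x * (4 * signAvg c wc y) := by
            rw [hμe, signAvg, signAvg, mul_div_cancel₀ _ (by norm_num), Finset.mul_sum]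
            refine Finset.sum_congr rfl fun η hη => ?_
            rw [hwB.prop x hx _ (hmB hη), signAvg]
            simp only [ε]
            rcases hwB.sign _ (hmB hη) with h | h <;> rw [h] <;> push_cast <;> ring
        _ = 0 := by rw [hc0 hy, mul_zero, mul_zero]
    · have hy : (Cfsg.blockRank 2 B = 1 ↔ ¬ 2 ∣ orderOf y) := by
        by_cases h1 : Cfsg.blockRank 2 B = 1 <;> by_cases h2 : 2 ∣ orderOf x <;>
          by_cases h3 : 2 ∣ orderOf y <;> simp [h1, h2, h3] at hx hxy ⊢
      calc μ x y = signAvg c wc y * (4 * signAvg B wB x) := by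
            rw [hμe, signAvg, signAvg, mul_div_cancel₀ _ (by norm_num), Finset.mul_sum,
              ← hre fun χ => (∑ η ∈ blockFinset c, (wc η : ℂ) * (η : N → ℂ) y) / 4 *
                ((wB χ : ℂ) * (χ : G → ℂ) x)]
            refine Finset.sum_congr rfl fun η hη => ?_
            rw [hc' hy _ (hmc hη), signAvg]
            simp only [ε]
            rcases hwc.sign _ (hmc hη) with h | h <;> rw [h] <;> push_cast <;> ring
        _ = 0 := by rw [hwB.zero x hx, mul_zero, mul_zero]
  have hint : ∀ {H : Type u} [Group H] [Finite H] (z : ℤ) (χ : Cfsg.IrrCharacter H) (g : H),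
      IsIntegral ℤ ((z : ℂ) * (χ : H → ℂ) g) := fun z χ g =>
    (H42.isIntegral_intCast z).mul (H42.isIntegral_value (H26.irr_isCharacter χ) g)
  refine ⟨I, ε, ⟨fun η h => mem_blockFinset.1 (hImem η (mem_blockFinset.2 h)),
    fun η h η' h' => hIinj η (mem_blockFinset.2 h) η' (mem_blockFinset.2 h'), fun χ h => ?_⟩,
    fun η hη => ?_, fun x y => ?_⟩
  · obtain ⟨η, h1, h2⟩ := hIsurj χ (mem_blockFinset.2 h)
    exact ⟨η, hmc h1, h2⟩
  · rcases hwc.sign η hη with h | h <;>
      rcases hwB.sign _ (hmB (mem_blockFinset.2 hη)) with h' | h' <;> simp [ε, h, h']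
  change Cfsg.MemLocalRing M (μ x y / _) ∧ Cfsg.MemLocalRing M (μ x y / _) ∧
    ((¬ 2 ∣ orderOf x ↔ ¬ 2 ∣ orderOf y) ∨ μ x y = 0)
  by_cases hxy : (¬ 2 ∣ orderOf x ↔ ¬ 2 ∣ orderOf y)
  swap
  · have h0 := hmix x y hxy
    refine ⟨?_, ?_, Or.inr h0⟩ <;> rw [h0, zero_div] <;> exact (H41.localRing M).zero_mem
  refine ⟨?_, ?_, Or.inl hxy⟩ <;> by_cases hx : 2 ∣ orderOf x
  -- both singular: expand over the subsections
  rotate_left
  · have hy : ¬ 2 ∣ orderOf y := hxy.1 hx
    rw [hμe, Finset.sum_congr rfl (g := fun η => ((ε η : ℂ) * (η : N → ℂ) y) * (I η : G → ℂ) x)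
      fun η _ => by ring]
    refine memLocalRing_div_centralizer hM (blockFinset c) _ I (fun η _ => hint _ η y)
      (fun x' hx' => ?_) hx
    rw [← hmix x' y (fun h => (h.2 hy) hx'), hμe]
    exact Finset.sum_congr rfl fun η _ => by ring
  rotate_left
  · have hy : ¬ 2 ∣ orderOf y := hxy.1 hx
    rw [hμe]
    refine memLocalRing_div_centralizer hM (blockFinset c)
      (fun η => (ε η : ℂ) * (I η : G → ℂ) x) id (fun η _ => hint _ (I η) x) (fun y' hy' => ?_) hy
    exact (hμe x y').symm.trans (hmix x y' fun h => (h.1 hx) hy')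
  all_goals
    have hy : 2 ∣ orderOf y := not_not.1 fun h => (hxy.2 h) hx
    obtain ⟨ι, _, D, α, hD, hDodd, hDsum, hαi, hα⟩ :=
      exists_section_expansion hM hB hPD h4 hsq hwB hx
    obtain ⟨κ, _, E, β, hE, hEodd, hEsum, hβi, hβ⟩ :=
      exists_section_expansion hM hc.1 hcD h4Q hsqQ hwc hy
    have hk : ∀ i j, (4 : ℤ) ∣ ∑ η ∈ blockFinset c,
        (wB (I η) * D i (I η)) * (wc η * E j η) := by
      intro i j
      have h1 : (4 : ℤ) ∣ ∑ η ∈ blockFinset c,
          (wB (I η) * D i (I η) - 1) * (wc η * E j η - 1) := by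
        refine Finset.dvd_sum fun η hη => ?_
        have ha : Odd (wB (I η) * D i (I η)) := Int.odd_mul.2 ⟨by
          rcases hwB.sign _ (hmB hη) with h | h <;> simp [h], hDodd i _ (hmB hη)⟩
        have hb : Odd (wc η * E j η) := Int.odd_mul.2 ⟨by
          rcases hwc.sign _ (hmc hη) with h | h <;> simp [h], hEodd j _ (hmc hη)⟩
        obtain ⟨a, ha⟩ := ha
        obtain ⟨b, hb⟩ := hb
        exact ⟨a * b, by rw [ha, hb]; ring⟩
      have h2 : (4 : ℤ) ∣ ∑ η ∈ blockFinset c, wB (I η) * D i (I η) := by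
        rw [hre fun χ => wB χ * D i χ]
        exact hDsum i
      have h3 := dvd_sub (dvd_add (dvd_add h1 h2) (hEsum j)) (dvd_refl (4 : ℤ))
      refine h3.trans (dvd_of_eq ?_)
      simp only [sub_mul, mul_sub, one_mul, mul_one, Finset.sum_sub_distrib, Finset.sum_const,
        hcardc, nsmul_eq_mul]
      push_cast
      ring
    choose k hk using hk
    have hμk : μ x y = ∑ i, ∑ j, 4 * (k i j : ℂ) * α i * β j := by
      rw [hμe, Finset.sum_congr rfl fun η hη => by
        rw [hD _ (hmB hη), hE _ (hmc hη)]]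
      simp only [Finset.mul_sum, Finset.sum_mul]
      rw [Finset.sum_comm, Finset.sum_congr rfl fun _ _ => Finset.sum_comm, Finset.sum_comm]
      refine Finset.sum_congr rfl fun i _ => Finset.sum_congr rfl fun j _ => ?_
      have e := congrArg (fun z : ℤ => (z : ℂ)) (hk i j)
      push_cast at e
      rw [← e, Finset.sum_mul, Finset.sum_mul]
      refine Finset.sum_congr rfl fun η _ => ?_
      simp only [ε]
      push_cast
      ring
    rw [hμk]
    simp only [Finset.sum_div]
    refine Subring.sum_mem (H41.localRing M) fun i _ =>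
      Subring.sum_mem (H41.localRing M) fun j _ => ?_
    first
    | rw [show 4 * (k i j : ℂ) * α i * β j /
          (Nat.card (Subgroup.centralizer ({x} : Set G)) : ℂ) = (k i j : ℂ) * β j *
          (4 * α i / (Nat.card (Subgroup.centralizer ({x} : Set G)) : ℂ)) by ring]
      exact mul_mem (H41.isIntegral_mem_localRing ((H42.isIntegral_intCast _).mul (hβi j))) (hα i)
    | rw [show 4 * (k i j : ℂ) * α i * β j /
          (Nat.card (Subgroup.centralizer ({y} : Set N)) : ℂ) = (k i j : ℂ) * α i *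
          (4 * β j / (Nat.card (Subgroup.centralizer ({y} : Set N)) : ℂ)) by ring]
      exact mul_mem (H41.isIntegral_mem_localRing ((H42.isIntegral_intCast _).mul (hαi i))) (hβ j)

end Cfsg.Agent.H56
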