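import Cfsg.Agent.H40.MajorColumn

/-!
# Ingredients for perfect isometries of blocks with a Klein four defect group
-/

set_option autoImplicit false

open scoped ComplexConjugate

namespace Cfsg.Agent.H56

universe u

/-- A symmetric matrix of size four with odd entries, square four times itself and trace four,
is the outer square of a sign vector. -/
theorem exists_signs_of_sq_eq {ι : Type*} {s : Finset ι} (hs : s.card = 4) (K : ι → ι → ℤ)
    (hsym : ∀ a ∈ s, ∀ b ∈ s, K a b = K b a) (hodd : ∀ a ∈ s, ∀ b ∈ s, Odd (K a b))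
    (hsq : ∀ a ∈ s, ∀ b ∈ s, ∑ j ∈ s, K a j * K j b = 4 * K a b)
    (htr : ∑ a ∈ s, K a a = 4) :
    ∃ w : ι → ℤ, (∀ a ∈ s, w a = 1 ∨ w a = -1) ∧ ∀ a ∈ s, ∀ b ∈ s, K a b = w a * w b := by
  have h1 : ∀ a ∈ s, ∀ b ∈ s, 1 ≤ K a b * K a b := fun a ha b hb => by
    obtain ⟨k, hk⟩ := hodd a ha b hb
    have : K a b ≠ 0 := by omega
    have := mul_self_pos.2 this
    omega
  have hrow : ∀ a ∈ s, ∑ j ∈ s, K a j * K a j = 4 * K a a := fun a ha => by
    rw [← hsq a ha a ha]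
    exact Finset.sum_congr rfl fun j hj => by rw [hsym j hj a ha]
  have hd1 : ∀ a ∈ s, 1 ≤ K a a := fun a ha => by
    have := Finset.sum_le_sum fun j hj => h1 a ha j hj
    rw [hrow a ha, Finset.sum_const, hs, nsmul_eq_mul, mul_one] at this
    push_cast at this
    omega
  have hd : ∀ a ∈ s, (1 : ℤ) = K a a :=
    (Finset.sum_eq_sum_iff_of_le hd1).1 (by simp [hs, htr])
  have hsqone : ∀ a ∈ s, ∀ b ∈ s, K a b * K a b = 1 := fun a ha b hb =>
    ((Finset.sum_eq_sum_iff_of_le fun j hj => h1 a ha j hj).1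
      (by rw [hrow a ha, ← hd a ha]; simp [hs]) b hb).symm
  obtain ⟨a₀, ha₀⟩ : s.Nonempty := Finset.card_pos.1 (by omega)
  refine ⟨K a₀, fun a ha => mul_self_eq_one_iff.1 (hsqone a₀ ha₀ a ha), fun a ha b hb => ?_⟩
  have hle : ∀ j ∈ s, K a j * K j b * K a b ≤ 1 := fun j hj => by
    rcases mul_self_eq_one_iff.1 (hsqone a ha j hj) with h | h <;>
      rcases mul_self_eq_one_iff.1 (hsqone j hj b hb) with h' | h' <;>
      rcases mul_self_eq_one_iff.1 (hsqone a ha b hb) with h'' | h'' <;> simp [h, h', h'']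
  have h := (Finset.sum_eq_sum_iff_of_le hle).1
    (by rw [← Finset.sum_mul, hsq a ha b hb, mul_assoc, hsqone a ha b hb]; simp [hs]) a₀ ha₀
  rw [hsym a₀ ha₀ a ha]
  linear_combination (-(K a b)) * h + K a a₀ * K a₀ b * hsqone a ha b hb

open scoped Classical in
/-- A combination of irreducible characters with algebraic-integral coefficients vanishing at
singular elements is divisible by the orders of centralisers. -/
theorem memLocalRing_div_centralizer {G : Type u} [Group G] [Fintype G] {p : ℕ} [Fact p.Prime]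
    {M : Ideal Cfsg.AlgInt} (hM : Cfsg.IsPModular p M) {ι : Type*} (t : Finset ι) (a : ι → ℂ)
    (ψ : ι → Cfsg.IrrCharacter G) (ha : ∀ i ∈ t, IsIntegral ℤ (a i))
    (h0 : ∀ y : G, p ∣ orderOf y → ∑ i ∈ t, a i * (ψ i : G → ℂ) y = 0)
    {x : G} (hx : ¬ p ∣ orderOf x) :
    Cfsg.MemLocalRing M ((∑ i ∈ t, a i * (ψ i : G → ℂ) x) /
      (Nat.card (Subgroup.centralizer ({x} : Set G)) : ℂ)) := by
  have := hM.2.1
  obtain ⟨c, m, hc, hm, hg⟩ := H40.exists_regular_indicator p hx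
  set F : G → ℂ := fun y => ∑ i ∈ t, a i * (ψ i : G → ℂ) y with hF
  set T : ℂ := ∑ i ∈ t, a i * conj (c (ψ i)) with hT
  have hTint : IsIntegral ℤ T := IsIntegral.sum _ fun i hi => (ha i hi).mul
    ((hc (ψ i)).map (starRingEnd ℂ).toIntAlgHom)
  have hFc : ∀ y : G, IsConj x y → F y = F x := fun y hy =>
    Finset.sum_congr rfl fun i _ => by rw [H26.irr_eq_of_isConj (ψ i) hy]
  have hpt : ∀ y : G, F y * conj (∑ χ : Cfsg.IrrCharacter G, c χ * (χ : G → ℂ) y) =
      if IsConj x y then F x * (m : ℂ) else 0 := fun y => by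
    by_cases hy : p ∣ orderOf y
    · have hn : ¬ IsConj x y := fun h => by
        obtain ⟨g, hg⟩ := isConj_iff.1 h
        rw [← hg, H42.orderOf_conj_eq] at hy
        exact hx hy
      rw [if_neg hn, hF]
      dsimp only
      rw [h0 y hy, zero_mul]
    · rw [hg y hy]
      by_cases h : IsConj x y
      · rw [if_pos h, if_pos h, Complex.conj_natCast, hFc y h]
      · rw [if_neg h, if_neg h, map_zero, mul_zero]
  have horth : ∀ θ χ : Cfsg.IrrCharacter G, ∑ y, (θ : G → ℂ) y * conj ((χ : G → ℂ) y) =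
      if θ = χ then (Nat.card G : ℂ) else 0 := fun θ χ => by
    have h := H26.classInner_irr θ χ
    rw [Cfsg.classInner, inv_mul_eq_iff_eq_mul₀ (Nat.cast_ne_zero.2 Nat.card_pos.ne')] at h
    rw [h, mul_ite, mul_one, mul_zero]
  have hlhs : ∑ y, F y * conj (∑ χ : Cfsg.IrrCharacter G, c χ * (χ : G → ℂ) y) =
      (Nat.card G : ℂ) * T := by
    simp only [hF, hT, map_sum, map_mul, Finset.sum_mul, Finset.mul_sum]
    refine (Finset.sum_congr rfl fun y _ => Finset.sum_comm (β := ℂ)).trans ?_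
    refine (Finset.sum_comm (β := ℂ)).trans ?_
    refine Finset.sum_congr rfl fun i _ => ?_
    refine (Finset.sum_comm (β := ℂ)).trans ?_
    have : ∀ χ : Cfsg.IrrCharacter G,
        ∑ y, a i * (ψ i : G → ℂ) y * (conj (c χ) * conj ((χ : G → ℂ) y)) =
          if ψ i = χ then (Nat.card G : ℂ) * (a i * conj (c χ)) else 0 := fun χ => by
      rw [Finset.sum_congr rfl (g := fun y => a i * conj (c χ) *
        ((ψ i : G → ℂ) y * conj ((χ : G → ℂ) y))) (fun y _ => by ring), ← Finset.mul_sum, horth,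
        mul_ite, mul_zero, mul_comm]
    rw [Finset.sum_congr rfl fun χ _ => this χ, Finset.sum_ite_eq, if_pos (Finset.mem_univ _)]
  rw [Finset.sum_congr rfl fun y _ => hpt y, ← Finset.sum_filter, Finset.sum_const, nsmul_eq_mul]
    at hlhs
  have hcl := (Subgroup.centralizer ({x} : Set G)).card_mul_index
  rw [H25.index_centralizer_eq_card_class x, Nat.card_eq_fintype_card (α := {y // IsConj x y}),
    Fintype.card_subtype] at hcl
  have hcl' : (Nat.card (Subgroup.centralizer ({x} : Set G)) : ℂ) *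
      ((Finset.univ.filter (IsConj x)).card : ℂ) = (Nat.card G : ℂ) := by exact_mod_cast hcl
  have hC : (Nat.card (Subgroup.centralizer ({x} : Set G)) : ℂ) ≠ 0 :=
    Nat.cast_ne_zero.2 Nat.card_pos.ne'
  have hm0 : (m : ℂ) ≠ 0 := Nat.cast_ne_zero.2 fun h => hm (h ▸ dvd_zero p)
  have hk : ((Finset.univ.filter (IsConj x)).card : ℂ) ≠ 0 := Nat.cast_ne_zero.2
    (Finset.card_pos.2 ⟨x, Finset.mem_filter.2 ⟨Finset.mem_univ _, IsConj.refl x⟩⟩).ne'
  have hkey : F x / (Nat.card (Subgroup.centralizer ({x} : Set G)) : ℂ) = (m : ℂ)⁻¹ * T := by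
    rw [← hcl'] at hlhs
    have : F x * (m : ℂ) = (Nat.card (Subgroup.centralizer ({x} : Set G)) : ℂ) * T :=
      mul_left_cancel₀ hk (by linear_combination hlhs)
    rw [div_eq_iff hC]
    field_simp
    linear_combination this
  show F x / _ ∈ H41.localRing M
  rw [hkey]
  exact mul_mem (H41.IsPModular.inv_natCast_mem hM hm) (H41.isIntegral_mem_localRing hTint)

variable {G : Type u} [Group G] [Fintype G] {M : Ideal Cfsg.AlgInt}
  {B : Set (Cfsg.IrrCharacter G)}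

open scoped Classical in
/-- The column of a block of rank one at an involution, with its common regular part. -/
theorem exists_odd_column [Fact (Nat.Prime 2)] (hM : Cfsg.IsPModular 2 M) {x : G}
    (hx : x * x = 1) (K : Subgroup G) (hK : K = Subgroup.centralizer ({x} : Set G))
    {b : Set (Cfsg.IrrCharacter K)} (hind : Cfsg.IsInducedBlock M K b B)
    (hl : Cfsg.blockRank 2 b = 1) :
    ∃ (φ : K → ℂ) (D : Cfsg.IrrCharacter G → ℤ), φ 1 ≠ 0 ∧ (∀ s, IsIntegral ℤ (φ s)) ∧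
      (∀ s : K, ¬ 2 ∣ orderOf s → Cfsg.MemLocalRing M ((2 : ℂ) ^ Cfsg.blockDefect 2 b * φ s /
        (Nat.card (Subgroup.centralizer ({s} : Set K)) : ℂ))) ∧
      (∀ χ : Cfsg.IrrCharacter G, ∀ s : K, ¬ 2 ∣ orderOf s →
        Cfsg.blockPart b (fun c : K => (χ : G → ℂ) (x * (c : G))) s = (D χ : ℂ) * φ s) ∧
      ∀ χ ∈ B, Cfsg.blockHeight 2 B (χ : G → ℂ) = 0 → Odd (D χ) := by
  have : M.IsMaximal := hM.2.1
  have hb := hind.1
  have hxp : ∃ k : ℕ, orderOf x = 2 ^ k := by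
    obtain ⟨k, -, hk⟩ := (Nat.dvd_prime_pow Nat.prime_two).1
      (orderOf_dvd_of_pow_eq_one (x := x) (n := 2 ^ 1) (by rw [pow_one, sq, hx]))
    exact ⟨k, hk⟩
  have hxK : x ∈ K := by rw [hK, Subgroup.mem_centralizer_singleton_iff]
  let x₀ : K := ⟨x, hxK⟩
  have hx₀ : ∀ c : K, c * x₀ = x₀ * c := fun c => Subtype.ext
    (Subgroup.mem_centralizer_singleton_iff.1 (hK ▸ c.2 : (c : G) ∈ Subgroup.centralizer {x}))
  choose n hn hdec using fun χ : Cfsg.IrrCharacter G => H26.exists_nat_coeffs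
    (H26.isCharacter_comp (H26.irr_isCharacter χ) K.subtype)
  -- the scalar of `x`
  have hscal : ∀ φ : Cfsg.IrrCharacter K, ∃ ω : ℤ, (ω = 1 ∨ ω = -1) ∧
      ∀ c : K, (φ : K → ℂ) (x₀ * c) = (ω : ℂ) * (φ : K → ℂ) c := by
    intro φ
    set w : ℂ := (φ : K → ℂ) x₀ / (φ : K → ℂ) 1
    have hw : ∀ c : K, (φ : K → ℂ) (x₀ * c) = w * (φ : K → ℂ) c := by
      intro c
      have h := H42.irr_sum_mul φ (fun z => if z = x₀ then (1 : ℂ) else 0) (fun g h => by
        have : h * g * h⁻¹ = x₀ ↔ g = x₀ := by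
          constructor
          · intro he
            calc g = h⁻¹ * (h * g * h⁻¹) * h := by group
              _ = x₀ := by rw [he, mul_assoc, ← hx₀, inv_mul_cancel_left]
          · rintro rfl
            rw [hx₀, mul_inv_cancel_right]
        exact if_congr this rfl rfl) c
      simpa [w] using h
    have h2 := hw (x₀ * 1)
    rw [hw 1, mul_one, show x₀ * x₀ = 1 from Subtype.ext hx] at h2
    have hsq : w * w = 1 :=
      mul_right_cancel₀ (H26.irr_one_ne_zero φ) (by rw [one_mul, mul_assoc, ← h2])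
    rcases mul_self_eq_one_iff.1 hsq with h | h
    · exact ⟨1, Or.inl rfl, fun c => by rw [hw, h]; simp⟩
    · exact ⟨-1, Or.inr rfl, fun c => by rw [hw, h]; simp⟩
  choose ω hω hscal using hscal
  obtain ⟨φ, dd, m, hφ, hdd, hW⟩ := H40.exists_rank_one_data hM hb hl
  let D : Cfsg.IrrCharacter G → ℤ := fun χ => ∑ ψ ∈ H42.blockFinset b, (n χ ψ : ℤ) * ω ψ * dd ψ
  let θ : Cfsg.IrrCharacter G → K → ℂ := fun χ c => (χ : G → ℂ) (x * (c : G))
  have hθ : ∀ χ, θ χ = ∑ ψ : Cfsg.IrrCharacter K, ((n χ ψ : ℂ) * (ω ψ : ℂ)) • (ψ : K → ℂ) := by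
    intro χ
    ext c
    have := congrFun (hdec χ) (x₀ * c)
    simp only [Function.comp_apply, Subgroup.coe_subtype, Finset.sum_apply, Pi.smul_apply,
      smul_eq_mul] at this
    simp only [θ, Finset.sum_apply, Pi.smul_apply, smul_eq_mul]
    refine this.trans (Finset.sum_congr rfl fun ψ _ => ?_)
    rw [hscal]; ring
  have hD : ∀ χ, ∀ s : K, ¬ 2 ∣ orderOf s → Cfsg.blockPart b (θ χ) s = (D χ : ℂ) * φ s := by
    intro χ s hs
    rw [H32.blockPart_eq_sum]
    simp only [D, Int.cast_sum, Int.cast_mul, Int.cast_natCast, Finset.sum_mul]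
    refine Finset.sum_congr (by ext; simp [H42.mem_blockFinset]) fun ψ hψ => ?_
    rw [hθ χ, H26.classInner_sum_smul_irr, hdd ψ (H42.mem_blockFinset.1 hψ) s hs]
    ring
  have hone : ¬ 2 ∣ orderOf (1 : K) := by simp
  have hφ1 : φ 1 ≠ 0 := by
    intro h
    obtain ⟨ψ, hψ⟩ := H41.IsPBlock.nonempty hb
    refine H26.irr_one_ne_zero ψ ?_
    rw [hdd ψ hψ 1 hone, h, mul_zero]
  have hval : ∀ (ψ : Cfsg.IrrCharacter K) (y : K), IsIntegral ℤ ((ψ : K → ℂ) y) := fun ψ y =>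
    H42.isIntegral_value (H26.irr_isCharacter ψ) y
  refine ⟨φ, D, hφ1, fun s => ?_, fun s hs => ?_, hD, ?_⟩
  · rw [hφ]
    exact IsIntegral.sum _ fun ψ _ => (H42.isIntegral_intCast _).mul (hval ψ s)
  · -- the projective character
    have hz : ∀ y : K, 2 ∣ orderOf y →
        ∑ ψ ∈ H42.blockFinset b, (dd ψ : ℂ) * (ψ : K → ℂ) y = 0 := fun y hy => by
      have h := H42.sum_degree_mul_eq_zero hM hb hy
      rw [Finset.sum_congr rfl (g := fun ψ => φ 1 * ((dd ψ : ℂ) * (ψ : K → ℂ) y)) fun ψ hψ => by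
        rw [← H42.irr_one_eq, hdd ψ (H42.mem_blockFinset.1 hψ) 1 hone]; ring,
        ← Finset.mul_sum] at h
      exact (mul_eq_zero.1 h).resolve_left hφ1
    have hloc := memLocalRing_div_centralizer hM (H42.blockFinset b) (fun ψ => (dd ψ : ℂ))
      (fun ψ => ψ) (fun ψ _ => isIntegral_algebraMap (x := (dd ψ : ℤ))) hz hs
    have hW' : ((∑ ψ ∈ H42.blockFinset b, dd ψ ^ 2 : ℕ) : ℂ) = (2 : ℂ) ^ Cfsg.blockDefect 2 b := by
      rw [hW]; push_cast; rfl
    rw [← hW', Nat.cast_sum, Finset.sum_mul]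
    convert hloc using 2
    refine Finset.sum_congr rfl fun ψ hψ => ?_
    rw [hdd ψ (H42.mem_blockFinset.1 hψ) s hs]
    push_cast
    ring
  have hone : ¬ 2 ∣ orderOf (1 : K) := by simp
  obtain ⟨ξ, hξ, hξ0⟩ := H41.exists_height_zero (p := 2) (H41.IsPBlock.nonempty hb)
  have hmod : ∀ ψ ∈ b, (2 : ℤ) ∣ (dd ψ : ℤ) - H32.scaledDeg 2 b ψ := by
    intro ψ hψ
    -- `φ 1` is a natural number dividing every degree
    have hdeg : ∀ ψ ∈ b, (Cfsg.charDegree (ψ : K → ℂ) : ℂ) = (dd ψ : ℂ) * φ 1 := fun ψ hψ => by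
      rw [← H42.irr_one_eq, hdd ψ hψ 1 hone]
    obtain ⟨g, hg⟩ : ∃ g : ℤ, φ 1 = (g : ℂ) :=
      ⟨∑ ψ ∈ H42.blockFinset b, m ψ * (Cfsg.charDegree (ψ : K → ℂ) : ℤ), by
        simp [hφ, H42.irr_one_eq]⟩
    have hz : ∀ ψ ∈ b, (Cfsg.charDegree (ψ : K → ℂ) : ℤ) = (dd ψ : ℤ) * g := fun ψ hψ => by
      apply Int.cast_injective (α := ℂ)
      push_cast
      rw [hdeg ψ hψ, hg]
    -- `g` has the least two-part
    have hg2 : ∑ ψ ∈ H42.blockFinset b, m ψ * (dd ψ : ℤ) = 1 := by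
      have hg0 : g ≠ 0 := fun h0 => (H42.charDegree_pos ξ).ne'
        (by
          have h1 := hz ξ hξ
          rw [h0, mul_zero] at h1
          exact_mod_cast h1)
      refine mul_right_cancel₀ hg0 ?_
      rw [one_mul, Finset.sum_mul]
      apply Int.cast_injective (α := ℂ)
      rw [← hg, hφ]
      push_cast
      refine Finset.sum_congr rfl fun ψ hψ => ?_
      rw [H42.irr_one_eq, hdeg ψ (H42.mem_blockFinset.1 hψ), hg]
      ring
    have hdvd : ∀ ψ ∈ b, (2 : ℤ) ^ H32.minVal 2 b ∣ (Cfsg.charDegree (ψ : K → ℂ) : ℤ) := fun ψ hψ =>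
      ⟨H32.scaledDeg 2 b ψ, by rw [mul_comm]; exact (H32.scaledDeg_mul (p := 2) hψ).symm⟩
    have hgdvd : (2 : ℤ) ^ H32.minVal 2 b ∣ g := by
      have : g = ∑ ψ ∈ H42.blockFinset b, m ψ * (Cfsg.charDegree (ψ : K → ℂ) : ℤ) := by
        conv_lhs => rw [← one_mul g, ← hg2, Finset.sum_mul]
        exact Finset.sum_congr rfl fun ψ hψ => by rw [hz ψ (H42.mem_blockFinset.1 hψ)]; ring
      rw [this]
      exact Finset.dvd_sum fun ψ hψ => (hdvd ψ (H42.mem_blockFinset.1 hψ)).mul_left _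
    obtain ⟨o, ho⟩ := hgdvd
    have hsd : ∀ ψ ∈ b, H32.scaledDeg 2 b ψ = (dd ψ : ℤ) * o := fun ψ hψ => by
      refine mul_right_cancel₀ (pow_ne_zero (H32.minVal 2 b) (two_ne_zero : (2 : ℤ) ≠ 0)) ?_
      have := H32.scaledDeg_mul (p := 2) hψ
      push_cast at this
      rw [this, hz ψ hψ, ho]
      ring
    have hodd : ¬ (2 : ℤ) ∣ o := fun h => H32.not_dvd_scaledDeg hξ hξ0
      (by rw [hsd ξ hξ]; exact h.mul_left _)
    rw [hsd ψ hψ, show (dd ψ : ℤ) - (dd ψ : ℤ) * o = (dd ψ : ℤ) * (1 - o) by ring]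
    exact Dvd.dvd.mul_left (by omega) _
  intro χ hχ h0
  have hsum : (2 : ℤ) ∣ D χ -
      ∑ ψ ∈ Finset.univ.filter (· ∈ b), (n χ ψ : ℤ) * H32.scaledDeg 2 b ψ := by
    rw [show (Finset.univ.filter (· ∈ b)) = H42.blockFinset b by ext; simp [H42.mem_blockFinset]]
    simp only [D, ← Finset.sum_sub_distrib]
    refine Finset.dvd_sum fun ψ hψ => ?_
    have h1 := hmod ψ (H42.mem_blockFinset.1 hψ)
    rcases hω ψ with h | h <;> rw [h]
    · rw [mul_one, ← mul_sub]
      exact h1.mul_left _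
    · rw [show (n χ ψ : ℤ) * (-1) * (dd ψ : ℤ) - (n χ ψ : ℤ) * H32.scaledDeg 2 b ψ =
        (n χ ψ : ℤ) * (((dd ψ : ℤ) - H32.scaledDeg 2 b ψ) - 2 * (dd ψ : ℤ)) by ring]
      exact (dvd_sub h1 (dvd_mul_right 2 _)).mul_left _
  rw [Int.odd_iff]
  have := H32.not_dvd_sum_scaledDeg K hM hind hχ h0 (n χ) (fun ψ => hn χ ψ)
  push_cast at this
  omega

end Cfsg.Agent.H56
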