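import Cfsg.Agent.H40.KleinFour
import Cfsg.Agent.H42.BlockConv
import Cfsg.Agent.H56.KleinIsometryCore

/-!
# Signs and section values of a block with a Klein four defect group

Such a block has four members and a sign for each, such that on one of the two halves of the
group (regular or singular elements) the members are proportional along the signs, and on the
other half their signed sum vanishes.
-/

set_option autoImplicit false
set_option linter.unusedSectionVars false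

open scoped ComplexConjugate

namespace Cfsg.Agent.H56

open Cfsg.Agent.H22 (IsMaxEl elTop)
open Cfsg.Agent.H41 (ResField)
open Cfsg.Agent.H42 (blockFinset mem_blockFinset regInt regRes)

universe u

variable {G : Type u} [Group G] [Fintype G] {M : Ideal Cfsg.AlgInt} [M.IsMaximal]
  [CharP (ResField M) 2] [Fact (Nat.Prime 2)] {B : Set (Cfsg.IrrCharacter G)} {P : Subgroup G}

variable (hM : Cfsg.IsPModular 2 M) (hB : Cfsg.IsPBlock M B)
  (hPD : Cfsg.IsDefectGroup 2 M B P) (h4 : Nat.card P = 4) (hsq : ∀ x ∈ P, x * x = 1)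

include hM hB hPD

/-- A defect group lies in a maximal pair. -/
theorem exists_maxEl_of_defectGroup :
    ∃ e : MonoidAlgebra (ResField M) G, IsMaxEl 2 ⊤ (elTop M B) (P, e) := by
  have hS := H22.split M G
  have hb := H22.isBlockEl_elTop hB
  have hdef := (H22.isDefectGroup_top_iff hM hB).1 hPD
  obtain ⟨ε, hpair, hbel⟩ := H22.exists_pair_below hS hb hdef.le hdef.pGroup hdef.ne_zero
  exact ⟨ε, H22.isMaxEl_of_isDefEl hpair hbel hdef⟩

include h4

/-- The defect is two. -/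
theorem blockDefect_eq_two : Cfsg.blockDefect 2 B = 2 :=
  Nat.pow_right_injective le_rfl
    (((H40.card_defectGroup hM hB hPD).symm.trans h4).trans (by norm_num : (4 : ℕ) = 2 ^ 2))

include hsq

open scoped Classical in
/-- The block has four members, all of height zero. -/
theorem card_eq_four_and_height :
    (blockFinset B).card = 4 ∧ ∀ χ ∈ B, Cfsg.blockHeight 2 B (χ : G → ℂ) = 0 := by
  obtain ⟨e, hm⟩ := exists_maxEl_of_defectGroup hM hB hPD
  have hab := H40.comm_of_exponent_two hsq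
  obtain ⟨-, hk, -⟩ := H40.klein_four_invariants hM hB hm hPD h4 hsq
  obtain ⟨x, hxP, hx1⟩ : ∃ x ∈ P, x ≠ 1 := by
    by_contra hne
    push Not at hne
    rw [(Subgroup.eq_bot_iff_forall P).2 hne, Subgroup.card_bot] at h4
    omega
  obtain ⟨b, hb⟩ := H40.exists_subAt hM hB hm hab hxP
  have hcnt := (H40.card_height_zero_of_column hM (hsq x hxP) _ rfl
    (H40.isInducedBlock_of_subAt hM hB hm hab hb).1
    (H40.blockRank_subAt_eq_one hM hB hm h4 hsq hxP hx1 hb)
    (H40.blockDefect_subAt hM hB hm h4 hsq hb)).1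
  have hcard : (blockFinset B).card = 4 := by
    rw [← hk, Nat.card_eq_fintype_card]
    exact (Fintype.card_of_finset' _ fun χ => mem_blockFinset).symm
  refine ⟨hcard, fun χ hχ => ?_⟩
  have heq := Finset.eq_of_subset_of_card_le (Finset.filter_subset _ (blockFinset B))
    (hcard.le.trans hcnt.ge)
  exact (Finset.filter_eq_self.1 heq) χ (mem_blockFinset.2 hχ)

omit hM hB hPD h4 hsq

open scoped Classical in
/-- The average of the block along a sign function. -/
noncomputable def signAvg (B : Set (Cfsg.IrrCharacter G)) (w : Cfsg.IrrCharacter G → ℤ) (x : G) :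
    ℂ :=
  (∑ χ ∈ blockFinset B, (w χ : ℂ) * (χ : G → ℂ) x) / 4

/-- Signs along which a block is proportional on the half of the group selected by its rank. -/
structure IsSignData (B : Set (Cfsg.IrrCharacter G)) (w : Cfsg.IrrCharacter G → ℤ) : Prop where
  sign : ∀ χ ∈ B, w χ = 1 ∨ w χ = -1
  prop : ∀ x : G, (Cfsg.blockRank 2 B = 1 ↔ ¬ 2 ∣ orderOf x) → ∀ χ ∈ B,
    (χ : G → ℂ) x = (w χ : ℂ) * signAvg B w x
  zero : ∀ x : G, ¬ (Cfsg.blockRank 2 B = 1 ↔ ¬ 2 ∣ orderOf x) → signAvg B w x = 0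

include hM hB hPD h4 hsq

open scoped Classical in
/-- The signs exist. -/
theorem exists_signData : ∃ w : Cfsg.IrrCharacter G → ℤ, IsSignData B w := by
  obtain ⟨e, hm⟩ := exists_maxEl_of_defectGroup hM hB hPD
  obtain ⟨hE, -, hl⟩ := H40.klein_four_invariants hM hB hm hPD h4 hsq
  rw [← hl] at hE
  obtain ⟨hcard, hh⟩ := card_eq_four_and_height hM hB hPD h4 hsq
  have hd := blockDefect_eq_two hM hB hPD h4
  set a := (Nat.card G).factorization 2 with ha
  set Q : ℤ := (2 : ℤ) ^ a with hQ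
  have hQ0 : Q ≠ 0 := pow_ne_zero _ two_ne_zero
  have hQc : ((2 ^ a : ℕ) : ℂ) = (Q : ℂ) := by rw [hQ]; push_cast; rfl
  have hex : ∀ χ ∈ B, ∀ ξ : Cfsg.IrrCharacter G, ∃ z : ℤ, 4 * regInt 2 χ ξ = Q * z := by
    intro χ hχ ξ
    obtain ⟨z, hz⟩ := H42.exists_int_pow_defect_mul hM hB hχ ξ
    refine ⟨z, Int.cast_injective (α := ℂ) ?_⟩
    rw [hd, ← ha, hQc, mul_div_assoc',
      div_eq_iff (Int.cast_ne_zero.2 hQ0)] at hz
    push_cast at hz ⊢
    linear_combination hz
  choose! Z hZ using hex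
  set S := blockFinset B with hS
  have hsym : ∀ χ ∈ B, ∀ ξ ∈ B, Z χ ξ = Z ξ χ := fun χ hχ ξ hξ =>
    mul_left_cancel₀ hQ0 (by rw [← hZ χ hχ ξ, ← hZ ξ hξ χ, H42.regInt_comm])
  have hodd : ∀ χ ∈ B, ∀ ξ ∈ B, Odd (Z χ ξ) := by
    intro χ hχ ξ hξ
    by_contra hev
    obtain ⟨k, hk⟩ := Int.not_odd_iff_even.1 hev
    have h1 := H42.factorization_degree_add_defect (p := 2) hB hξ
    rw [hd, hh ξ hξ, ← ha, add_zero] at h1
    refine H42.not_pow_succ_dvd_regInt hM hB hχ (hh χ hχ) hξ ⟨k, ?_⟩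
    have h := hZ χ hχ ξ
    rw [hk, hQ, ← h1, pow_add] at h
    push_cast
    rw [pow_succ]
    linarith
  have hidem : ∀ χ ∈ B, ∀ ψ ∈ B, ∑ ξ ∈ S, Z χ ξ * Z ξ ψ = 4 * Z χ ψ := by
    intro χ hχ ψ hψ
    have h1 : ∑ ξ ∈ S, regInt 2 χ ξ * regInt 2 ξ ψ = Q * regInt 2 χ ψ := by
      have h := H42.sum_regInt_mul 2 χ ψ
      push_cast at h
      rw [← ha, ← hQ] at h
      rw [← h]
      refine Finset.sum_subset (Finset.subset_univ _) fun ξ _ hξ => ?_
      rw [H42.regInt_eq_zero_of_notMem hM hB hχ (fun h => hξ (mem_blockFinset.2 h)), zero_mul]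
    refine mul_left_cancel₀ (mul_ne_zero hQ0 hQ0) ?_
    rw [Finset.mul_sum]
    calc ∑ ξ ∈ S, Q * Q * (Z χ ξ * Z ξ ψ)
        = ∑ ξ ∈ S, 16 * (regInt 2 χ ξ * regInt 2 ξ ψ) := by
          refine Finset.sum_congr rfl fun ξ hξ => ?_
          linear_combination (-(Q * Z χ ξ)) * hZ ξ (mem_blockFinset.1 hξ) ψ -
            4 * regInt 2 ξ ψ * hZ χ hχ ξ
      _ = Q * Q * (4 * Z χ ψ) := by
          rw [← Finset.mul_sum, h1]
          linear_combination (4 * Q) * hZ χ hχ ψ
  have htr : ∑ χ ∈ S, Z χ χ = 4 * (Cfsg.blockRank 2 B : ℤ) := by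
    have h := H42.blockRank_eq_sum hM hB
    rw [← ha, hQc] at h
    apply Int.cast_injective (α := ℂ)
    push_cast
    rw [h, Finset.mul_sum]
    refine Finset.sum_congr rfl fun χ hχ => ?_
    rw [← mul_div_assoc, eq_div_iff (Int.cast_ne_zero.2 hQ0)]
    have e := congrArg (fun z : ℤ => (z : ℂ)) (hZ χ (mem_blockFinset.1 hχ) χ)
    push_cast at e
    linear_combination -e
  -- the matrix of rank one
  let K : Cfsg.IrrCharacter G → Cfsg.IrrCharacter G → ℤ := fun χ ξ =>
    if Cfsg.blockRank 2 B = 1 then Z χ ξ else (if χ = ξ then 4 else 0) - Z χ ξ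
  obtain ⟨w, hw, hK⟩ : ∃ w : Cfsg.IrrCharacter G → ℤ, (∀ χ ∈ S, w χ = 1 ∨ w χ = -1) ∧
      ∀ χ ∈ S, ∀ ξ ∈ S, K χ ξ = w χ * w ξ := by
    refine exists_signs_of_sq_eq hcard K (fun χ hχ ξ hξ => ?_) (fun χ hχ ξ hξ => ?_)
      (fun χ hχ ψ hψ => ?_) ?_
    · simp only [K]
      rw [hsym χ (mem_blockFinset.1 hχ) ξ (mem_blockFinset.1 hξ)]
      simp only [eq_comm (a := χ)]
    · simp only [K]
      split_ifs
      · exact hodd χ (mem_blockFinset.1 hχ) ξ (mem_blockFinset.1 hξ)
      · exact (show Even (4 : ℤ) by decide).sub_odd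
          (hodd χ (mem_blockFinset.1 hχ) ξ (mem_blockFinset.1 hξ))
      · exact (show Even (0 : ℤ) by decide).sub_odd
          (hodd χ (mem_blockFinset.1 hχ) ξ (mem_blockFinset.1 hξ))
    · have h := hidem χ (mem_blockFinset.1 hχ) ψ (mem_blockFinset.1 hψ)
      simp only [K]
      by_cases h1 : Cfsg.blockRank 2 B = 1
      · simpa [h1] using h
      · simp only [if_neg h1, sub_mul, mul_sub, Finset.sum_sub_distrib, ite_mul, mul_ite,
          zero_mul, mul_zero]
        rw [Finset.sum_ite_eq, if_pos hχ, Finset.sum_ite_eq', if_pos hψ, h]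
        split_ifs <;> ring
    · simp only [K]
      by_cases h1 : Cfsg.blockRank 2 B = 1
      · simp [h1, htr]
      · simp only [if_neg h1, if_true, Finset.sum_sub_distrib, Finset.sum_const, nsmul_eq_mul]
        rw [htr, hcard, hE.resolve_left h1]
        norm_num
  suffices h : (∀ x : G, (Cfsg.blockRank 2 B = 1 ↔ ¬ 2 ∣ orderOf x) → ∀ χ ∈ B,
      (χ : G → ℂ) x = (w χ : ℂ) * signAvg B w x) ∧
      ∀ x : G, ¬ (Cfsg.blockRank 2 B = 1 ↔ ¬ 2 ∣ orderOf x) → signAvg B w x = 0 from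
    ⟨w, fun χ hχ => hw χ (mem_blockFinset.2 hχ), h.1, h.2⟩
  -- the regular parts
  have hexp : ∀ χ ∈ B, ∀ x : G, regRes 2 (χ : G → ℂ) x =
      ∑ ξ ∈ S, (Z χ ξ : ℂ) / 4 * (ξ : G → ℂ) x := by
    intro χ hχ x
    rw [H42.regRes_eq_sum_block hM hB hχ x, ← ha, hQc]
    refine Finset.sum_congr rfl fun ξ _ => ?_
    have e := congrArg (fun z : ℤ => (z : ℂ)) (hZ χ hχ ξ)
    push_cast at e
    congr 1
    rw [div_eq_div_iff (Int.cast_ne_zero.2 hQ0) (by norm_num)]
    linear_combination e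
  obtain ⟨χ₀, hχ₀⟩ := H41.IsPBlock.nonempty hB
  have hne : ∀ χ ∈ B, (w χ : ℂ) ≠ 0 := fun χ hχ => by
    rcases hw χ (mem_blockFinset.2 hχ) with h | h <;> simp [h]
  by_cases h1 : Cfsg.blockRank 2 B = 1
  · have hr : ∀ χ ∈ B, ∀ x : G, regRes 2 (χ : G → ℂ) x = (w χ : ℂ) * signAvg B w x := by
      intro χ hχ x
      rw [hexp χ hχ x, signAvg, ← hS, mul_div_assoc', Finset.mul_sum, Finset.sum_div]
      refine Finset.sum_congr rfl fun ξ hξ => ?_
      have e := hK χ (mem_blockFinset.2 hχ) ξ hξ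
      simp only [K, if_pos h1] at e
      rw [e]
      push_cast
      ring
    constructor
    · intro x hx χ hχ
      rw [← hr χ hχ x, H42.regRes_of_regular (hx.1 h1)]
    · intro x hx
      have hx' : 2 ∣ orderOf x := by
        by_contra hh'
        exact hx ⟨fun _ => hh', fun _ => h1⟩
      have h := hr χ₀ hχ₀ x
      rw [H42.regRes_of_singular hx', eq_comm, mul_eq_zero] at h
      exact h.resolve_left (hne χ₀ hχ₀)
  · have hr : ∀ χ ∈ B, ∀ x : G,
        regRes 2 (χ : G → ℂ) x = (χ : G → ℂ) x - (w χ : ℂ) * signAvg B w x := by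
      intro χ hχ x
      have hself : ∑ ξ ∈ S, (if χ = ξ then (1 : ℂ) else 0) * (ξ : G → ℂ) x = (χ : G → ℂ) x := by
        simp [hS, mem_blockFinset.2 hχ]
      rw [hexp χ hχ x, signAvg, ← hS, mul_div_assoc', Finset.mul_sum, Finset.sum_div, ← hself,
        ← Finset.sum_sub_distrib]
      refine Finset.sum_congr rfl fun ξ hξ => ?_
      have e := congrArg (fun z : ℤ => (z : ℂ)) (hK χ (mem_blockFinset.2 hχ) ξ hξ)
      simp only [K, if_neg h1] at e
      push_cast at e
      split_ifs at e ⊢ <;> push_cast at e <;> linear_combination (-((ξ : G → ℂ) x) / 4) * e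
    constructor
    · intro x hx χ hχ
      have hx' : 2 ∣ orderOf x := by
        by_contra hh'
        exact h1 (hx.2 hh')
      have h := hr χ hχ x
      rw [H42.regRes_of_singular hx'] at h
      linear_combination -h
    · intro x hx
      have hx' : ¬ 2 ∣ orderOf x := fun hh' => hx ⟨fun h => absurd h h1, fun h => absurd hh' h⟩
      have h := hr χ₀ hχ₀ x
      rw [H42.regRes_of_regular hx'] at h
      exact (mul_eq_zero.1 (by linear_combination h :
        (w χ₀ : ℂ) * signAvg B w x = 0)).resolve_left (hne χ₀ hχ₀)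

open scoped Classical in
/-- The values of the block at a singular element, by the subsections there. -/
theorem exists_section_expansion {w : Cfsg.IrrCharacter G → ℤ} (hw : IsSignData B w) {x : G}
    (hx : 2 ∣ orderOf x) :
    ∃ (ι : Type u) (_ : Fintype ι) (D : ι → Cfsg.IrrCharacter G → ℤ) (α : ι → ℂ),
      (∀ χ ∈ B, (χ : G → ℂ) x = ∑ i, (D i χ : ℂ) * α i) ∧ (∀ i, ∀ χ ∈ B, Odd (D i χ)) ∧
      (∀ i, (4 : ℤ) ∣ ∑ χ ∈ blockFinset B, w χ * D i χ) ∧ (∀ i, IsIntegral ℤ (α i)) ∧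
      ∀ i, Cfsg.MemLocalRing M
        (4 * α i / (Nat.card (Subgroup.centralizer ({x} : Set G)) : ℂ)) := by
  obtain ⟨hcard, hh⟩ := card_eq_four_and_height hM hB hPD h4 hsq
  obtain ⟨e, hm⟩ := exists_maxEl_of_defectGroup hM hB hPD
  obtain ⟨v, hv⟩ := H40.exists_isPPart (p := 2) x
  obtain ⟨r, hr, hvr, ⟨j, hj⟩, hreg⟩ := id hv
  have hv1 : v ≠ 1 := by
    rintro rfl
    rw [one_mul] at hr
    exact hreg (hr ▸ hx)
  have hrK : r ∈ Subgroup.centralizer ({v} : Set G) :=
    Subgroup.mem_centralizer_singleton_iff.2 hvr.eq.symm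
  set K := Subgroup.centralizer ({v} : Set G) with hK
  let s : K := ⟨r, hrK⟩
  have hs : ¬ 2 ∣ orderOf s := by rwa [← Subgroup.orderOf_coe]
  let θ : Cfsg.IrrCharacter G → K → ℂ := fun χ c => (χ : G → ℂ) (v * (c : G))
  have hcom : ∀ z : K, Commute v (z : G) := fun z =>
    (Subgroup.mem_centralizer_singleton_iff.1 z.2).symm
  have hcl : ∀ χ, Cfsg.IsClassFunction K (θ χ) := fun χ c d => by
    refine H26.irr_eq_of_isConj χ (isConj_iff.2 ⟨(d : G)⁻¹, ?_⟩)
    have hd' : (d : G)⁻¹ * v = v * (d : G)⁻¹ := ((hcom d).inv_right).eq.symm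
    rw [Subgroup.coe_mul, Subgroup.coe_mul, Subgroup.coe_inv, ← mul_assoc (d : G)⁻¹, hd']
    group
  set T := (Finset.univ.image fun η : Cfsg.IrrCharacter K => Cfsg.blockOf M (η : K → ℂ)).filter
    fun b => Cfsg.IsInducedBlock M K b B with hT
  have hcol : ∀ i : T, ∃ (φ : K → ℂ) (D : Cfsg.IrrCharacter G → ℤ), φ 1 ≠ 0 ∧
      (∀ s, IsIntegral ℤ (φ s)) ∧
      (∀ s : K, ¬ 2 ∣ orderOf s → Cfsg.MemLocalRing M
        (4 * φ s / (Nat.card (Subgroup.centralizer ({s} : Set K)) : ℂ))) ∧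
      (∀ χ : Cfsg.IrrCharacter G, ∀ s : K, ¬ 2 ∣ orderOf s →
        Cfsg.blockPart (i : Set (Cfsg.IrrCharacter K)) (θ χ) s = (D χ : ℂ) * φ s) ∧
      ∀ χ ∈ B, Odd (D χ) := by
    intro i
    have hind := (Finset.mem_filter.1 i.2).2
    obtain ⟨Q, ε, hmQ, hvQ, hsub⟩ := H40.exists_isMaxEl_subAt hM hB hm
      (H40.comm_of_exponent_two hsq) ⟨j, hj⟩ hind
    obtain ⟨h4', hsq'⟩ := H40.four_of_isMaxEl hM hB hmQ hPD h4 hsq
    obtain ⟨φ, D, h1, h2, h3, hD, hodd⟩ := exists_odd_column hM (hsq' v hvQ) K rfl hind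
      (H40.blockRank_subAt_eq_one hM hB hmQ h4' hsq' hvQ hv1 hsub)
    rw [H40.blockDefect_subAt hM hB hmQ h4' hsq' hsub,
      show (2 : ℂ) ^ 2 = 4 by norm_num] at h3
    exact ⟨φ, D, h1, h2, h3, hD, fun χ hχ => hodd χ hχ (hh χ hχ)⟩
  choose φ D hφ1 hφint hφloc hD hodd using hcol
  refine ⟨T, inferInstance, D, fun i => φ i s, fun χ hχ => ?_, hodd, fun i => ?_,
    fun i => hφint i s, fun i => ?_⟩
  · have hxeq : (χ : G → ℂ) x = θ χ s := by simp only [θ, s, hr]
    rw [hxeq, H32.sum_blockPart_blocks M (hcl χ) s]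
    rw [← Finset.sum_congr rfl fun (i : T) _ => hD i χ s hs, Finset.sum_coe_sort T
      (fun b => Cfsg.blockPart b (θ χ) s)]
    refine (Finset.sum_subset (Finset.filter_subset _ _) fun b hb hbT => ?_).symm
    obtain ⟨η, -, rfl⟩ := Finset.mem_image.1 hb
    exact Cfsg.Agent.S0923.result 2 M hM v ⟨j, hj⟩ B hB χ hχ _ (H41.isPBlock_blockOf η)
      (fun h => hbT (Finset.mem_filter.2 ⟨hb, h⟩)) s hs
  · -- the signed sum of the column
    have hone : ¬ 2 ∣ orderOf (1 : K) := by simp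
    have hb : Cfsg.IsPBlock M (i : Set (Cfsg.IrrCharacter K)) :=
      ((Finset.mem_filter.1 i.2).2).1
    have hsing : ∀ z : K, ¬ 2 ∣ orderOf z → 2 ∣ orderOf (v * (z : G)) := fun z hz => by
      have hco : (orderOf v).Coprime (orderOf (z : G)) := by
        rw [hj, Subgroup.orderOf_coe]
        exact Nat.Coprime.pow_left _ (Nat.prime_two.coprime_iff_not_dvd.2 hz)
      rw [(hcom z).orderOf_mul_eq_mul_orderOf_of_coprime hco, hj]
      rcases Nat.eq_zero_or_pos j with rfl | hj0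
      · exact absurd (orderOf_eq_one_iff.1 (by simpa using hj)) hv1
      · exact (dvd_pow_self 2 hj0.ne').mul_right _
    have hconv : ∀ χ, (D i χ : ℂ) * φ i 1 =
        ∑ z, regRes 2 (θ χ) z * Cfsg.blockCoeff (i : Set (Cfsg.IrrCharacter K)) (z * (1 : K)⁻¹) :=
      fun χ => by rw [← hD i χ 1 hone, H42.blockPart_eq_sum_regular hM hb (hcl χ) hone]
    set A : ℂ := ∑ z : K, (if 2 ∣ orderOf z then 0 else signAvg B w (v * (z : G))) *
      Cfsg.blockCoeff (i : Set (Cfsg.IrrCharacter K)) (z * (1 : K)⁻¹) with hA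
    have hsumA : ((∑ χ ∈ blockFinset B, w χ * D i χ : ℤ) : ℂ) * φ i 1 = 4 * A := by
      push_cast
      rw [Finset.sum_mul, Finset.sum_congr rfl fun χ _ => show (w χ : ℂ) * (D i χ : ℂ) * φ i 1 =
        _ by rw [mul_assoc, hconv χ, Finset.mul_sum], Finset.sum_comm, hA, Finset.mul_sum]
      refine Finset.sum_congr rfl fun z _ => ?_
      by_cases hz : 2 ∣ orderOf z
      · simp [H42.regRes_of_singular hz, hz]
      · rw [if_neg hz, signAvg, ← Finset.sum_congr rfl fun χ _ => mul_assoc (w χ : ℂ) _ _,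
          ← Finset.sum_mul, Finset.sum_congr rfl fun χ _ => by
            rw [H42.regRes_of_regular hz]]
        simp only [θ]
        ring
    by_cases h1 : Cfsg.blockRank 2 B = 1
    · have hA0 : A = 0 := Finset.sum_eq_zero fun z _ => by
        split_ifs with hz
        · exact zero_mul _
        · rw [hw.zero _ fun h => h.1 h1 (hsing z hz), zero_mul]
      rw [hA0, mul_zero, mul_eq_zero] at hsumA
      have : (∑ χ ∈ blockFinset B, w χ * D i χ) = 0 := by
        exact_mod_cast hsumA.resolve_right (hφ1 i)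
      rw [this]
      exact dvd_zero _
    · obtain ⟨χ₀, hχ₀⟩ := H41.IsPBlock.nonempty hB
      have hA1 : A = ((w χ₀ * D i χ₀ : ℤ) : ℂ) * φ i 1 := by
        push_cast
        rw [mul_assoc, hconv χ₀, hA, Finset.mul_sum]
        refine Finset.sum_congr rfl fun z _ => ?_
        by_cases hz : 2 ∣ orderOf z
        · simp [H42.regRes_of_singular hz, hz]
        · rw [if_neg hz, H42.regRes_of_regular hz]
          simp only [θ]
          rw [hw.prop _ ⟨fun h => absurd h h1, fun h => absurd (hsing z hz) h⟩ χ₀ hχ₀]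
          rcases hw.sign χ₀ hχ₀ with h | h <;> simp [h]
      rw [hA1, ← mul_assoc] at hsumA
      refine ⟨w χ₀ * D i χ₀, ?_⟩
      exact_mod_cast mul_right_cancel₀ (hφ1 i) hsumA
  · have key : ∀ (L : Subgroup G),
        L = Subgroup.centralizer ((Subgroup.zpowers v : Subgroup G) : Set G) →
        ∀ t : L, ¬ 2 ∣ orderOf t → Nat.card (Subgroup.centralizer ({v * (t : G)} : Set G)) =
          Nat.card (Subgroup.centralizer ({t} : Set L)) := by
      rintro L rfl t ht
      exact H32.card_centralizer_mul (p := 2) ⟨j, hj⟩ ht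
    have hc := key K (H40.centralizer_zpowers_eq v).symm s hs
    rw [show v * (s : G) = x from hr] at hc
    rw [hc]
    exact hφloc i s hs

end Cfsg.Agent.H56
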