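import Cfsg.Agent.H22.PairAlgebra
import Mathlib.LinearAlgebra.Matrix.ToLin
import Mathlib.LinearAlgebra.Matrix.Rank
import Mathlib.LinearAlgebra.Trace
import Mathlib.LinearAlgebra.Projection
import Mathlib.GroupTheory.GroupAction.Quotient
import Mathlib.GroupTheory.FiniteAbelian.Basic

/-!
# A central idempotent of least possible rank in a group algebra of characteristic `p`

If the image of a central idempotent is no larger than one transitive permutation module of
`P × P` allowed by its support, then `P` controls every automizer on its support.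
-/

set_option autoImplicit false
set_option linter.unusedSectionVars false

namespace Cfsg.Agent.H56.MinDim

open Matrix MulAction

/-! ### Fixed vectors of `p`-groups -/

/-- A non-zero stable additive subgroup killed by `p` has a non-zero fixed element. -/
theorem exists_fixed_ne_zero {p : ℕ} [Fact p.Prime] {X : Type*} [Group X] [Finite X]
    (hX : IsPGroup p X) {A : Type*} [AddCommGroup A] (hA : ∀ a : A, p • a = 0)
    (ρ : X →* AddMonoid.End A) (S : AddSubgroup A) (hS : ∀ x, ∀ a ∈ S, ρ x a ∈ S) {a₀ : A}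
    (ha : a₀ ∈ S) (ha0 : a₀ ≠ 0) : ∃ a ∈ S, a ≠ 0 ∧ ∀ x, ρ x a = a := by
  classical
  have := Fintype.ofFinite X
  let W : AddSubgroup A := AddSubgroup.closure (Set.range fun x => ρ x a₀)
  have hWS : W ≤ S := (AddSubgroup.closure_le _).2 (by rintro _ ⟨x, rfl⟩; exact hS x a₀ ha)
  have hW : ∀ x, ∀ a ∈ W, ρ x a ∈ W := by
    intro x a h
    refine AddSubgroup.closure_induction (p := fun b _ => ρ x b ∈ W) ?_ ?_ ?_ ?_ h
    · rintro _ ⟨y, rfl⟩
      refine AddSubgroup.subset_closure ⟨x * y, ?_⟩
      show ρ (x * y) a₀ = ρ x (ρ y a₀)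
      rw [map_mul]
      rfl
    · rw [map_zero]; exact W.zero_mem
    · intro b c _ _ hb hc; rw [map_add]; exact W.add_mem hb hc
    · intro b _ hb; rw [map_neg]; exact W.neg_mem hb
  have : AddGroup.FG W := (AddGroup.fg_iff_addSubgroup_fg W).2
    ⟨(Set.finite_range fun x => ρ x a₀).toFinset, by simp [W]⟩
  have : Finite W := AddCommGroup.finite_of_fg_isAddTorsion W fun w => by
    refine isOfFinAddOrder_iff_nsmul_eq_zero.2 ⟨p, (Fact.out : p.Prime).pos, ?_⟩
    exact Subtype.ext (by simpa using hA (w : A))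
  let _ : MulAction X W :=
    { smul := fun x w => ⟨ρ x w, hW x w w.2⟩
      one_smul := fun w => Subtype.ext (show ρ 1 (w : A) = w by rw [map_one]; rfl)
      mul_smul := fun x y w => Subtype.ext
        (show ρ (x * y) (w : A) = ρ x (ρ y (w : A)) by rw [map_mul]; rfl) }
  have haW : a₀ ∈ W := AddSubgroup.subset_closure ⟨1, by simp⟩
  have hdvd : p ∣ Nat.card W := by
    have hord : addOrderOf (⟨a₀, haW⟩ : W) = p :=
      addOrderOf_eq_prime (Subtype.ext (by simpa using hA a₀))
        (fun e => ha0 (congrArg Subtype.val e))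
    exact hord ▸ addOrderOf_dvd_natCard _
  obtain ⟨w, hw, hw0⟩ := hX.exists_fixed_point_of_prime_dvd_card_of_fixed_point W hdvd
    (a := (0 : W)) (fun x => Subtype.ext (map_zero (ρ x)))
  exact ⟨w, hWS w.2, fun e => hw0 (Subtype.ext e.symm), fun x => congrArg Subtype.val (hw x)⟩

/-! ### Ranks of idempotent matrices under reduction -/

section Rank

variable {n : Type*} [Fintype n] [DecidableEq n]

theorem rank_add_rank_one_sub {K : Type*} [Field K] {A : Matrix n n K} (hA : A * A = A) :
    A.rank + (1 - A).rank = Fintype.card n := by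
  have hr : LinearMap.range (1 - A).mulVecLin = LinearMap.ker A.mulVecLin := by
    apply le_antisymm
    · rintro _ ⟨v, rfl⟩
      rw [LinearMap.mem_ker, Matrix.mulVecLin_apply, Matrix.mulVecLin_apply, Matrix.mulVec_mulVec,
        mul_sub, mul_one, hA, sub_self, Matrix.zero_mulVec]
    · intro v hv
      rw [LinearMap.mem_ker, Matrix.mulVecLin_apply] at hv
      exact ⟨v, by simp [Matrix.sub_mulVec, hv]⟩
  rw [Matrix.rank, Matrix.rank, hr, LinearMap.finrank_range_add_finrank_ker,
    Module.finrank_fintype_fun_eq_card]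

theorem rank_map_le {R k K : Type*} [CommRing R] [Field k] [Field K] (φ : R →+* k) (ι : R →+* K)
    (hφ : Function.Surjective φ) (hι : Function.Injective ι) (A : Matrix n n R) :
    (A.map φ).rank ≤ (A.map ι).rank := by
  classical
  let r := (A.map φ).rank
  let bas : Module.Basis (Fin r) k (LinearMap.range (A.map φ).mulVecLin) := Module.finBasis k _
  choose v hv using fun i => (bas i).2
  let f : (Fin r → k) →ₗ[k] (n → k) :=
    (LinearMap.range (A.map φ).mulVecLin).subtype ∘ₗ bas.equivFun.symm.toLinearMap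
  obtain ⟨g, hg⟩ := f.exists_leftInverse_of_injective
    (LinearMap.ker_eq_bot.2 ((Submodule.injective_subtype _).comp bas.equivFun.symm.injective))
  let V : Matrix n (Fin r) k := Matrix.of fun j i => v i j
  let U : Matrix (Fin r) n k := LinearMap.toMatrix' g
  have hf : ∀ i, f (Pi.single i 1) = (A.map φ) *ᵥ v i := by
    intro i
    have e : bas.equivFun.symm (Pi.single i 1) = bas i := by
      rw [LinearEquiv.symm_apply_eq]
      funext j
      simp [Module.Basis.equivFun_apply, Finsupp.single_apply, Pi.single_apply, eq_comm]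
    show ((bas.equivFun.symm (Pi.single i 1)) : n → k) = _
    rw [e]
    exact (hv i).symm
  have h1 : U * (A.map φ * V) = 1 := by
    have h2 : A.map φ * V = LinearMap.toMatrix' f := by
      ext j i
      rw [LinearMap.toMatrix'_apply]
      have := congrFun (hf i) j
      simp only [Matrix.mulVec, dotProduct] at this
      rw [Matrix.mul_apply]
      simpa [V] using this.symm
    rw [h2, ← LinearMap.toMatrix'_comp, hg, LinearMap.toMatrix'_id]
  let s := Function.surjInv hφ
  have hs : ∀ x, φ (s x) = x := Function.surjInv_eq hφ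
  let T : Matrix (Fin r) (Fin r) R := U.map s * (A * V.map s)
  have hT : T.map φ = 1 := by
    simp only [T, Matrix.map_mul, Matrix.map_map, Function.comp_def, hs, Matrix.map_id']
    exact h1
  have hdet : ι T.det ≠ 0 := by
    intro h
    have h0 : T.det = 0 := hι (h.trans ι.map_zero.symm)
    have := RingHom.map_det φ T
    rw [RingHom.mapMatrix_apply, hT, Matrix.det_one, h0, map_zero] at this
    exact zero_ne_one this
  have hu : IsUnit (T.map ι) := by
    rw [Matrix.isUnit_iff_isUnit_det, ← RingHom.mapMatrix_apply, ← RingHom.map_det]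
    exact isUnit_iff_ne_zero.2 hdet
  calc r = (T.map ι).rank := by rw [Matrix.rank_of_isUnit _ hu, Fintype.card_fin]
    _ ≤ ((A.map ι) * ((V.map s).map ι)).rank := by
        simp only [T, Matrix.map_mul]
        exact Matrix.rank_mul_le_right _ _
    _ ≤ (A.map ι).rank := Matrix.rank_mul_le_left _ _

theorem rank_map_eq {R k K : Type*} [CommRing R] [Field k] [Field K] (φ : R →+* k) (ι : R →+* K)
    (hφ : Function.Surjective φ) (hι : Function.Injective ι) {A : Matrix n n R} (hA : A * A = A) :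
    (A.map φ).rank = (A.map ι).rank := by
  have h1 := rank_map_le φ ι hφ hι A
  have h2 := rank_map_le φ ι hφ hι (1 - A)
  have h3 := rank_add_rank_one_sub (A := A.map φ) (by rw [← Matrix.map_mul, hA])
  have h4 := rank_add_rank_one_sub (A := A.map ι) (by rw [← Matrix.map_mul, hA])
  have e1 : (1 - A).map φ = 1 - A.map φ := by simp [← RingHom.mapMatrix_apply]
  have e2 : (1 - A).map ι = 1 - A.map ι := by simp [← RingHom.mapMatrix_apply]
  rw [e1, e2] at h2
  omega

theorem trace_eq_rank {K : Type*} [Field K] {A : Matrix n n K} (hA : A * A = A) :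
    A.trace = (A.rank : K) := by
  have h : LinearMap.IsProj (LinearMap.range A.mulVecLin) A.mulVecLin := by
    refine ⟨fun v => LinearMap.mem_range_self _ v, ?_⟩
    rintro _ ⟨v, rfl⟩
    simp [Matrix.mulVec_mulVec, hA]
  rw [← Matrix.trace_toLin'_eq, Matrix.toLin'_apply', h.trace]
  rfl

end Rank

/-! ### The main theorem -/

section Main

variable {p : ℕ} [Fact p.Prime] {k : Type*} [Field k] [CharP k p] {G : Type*} [Group G] [Fintype G]

/-- Right multiplication by a function as a matrix. -/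
def convMat (β : G → k) : Matrix G G k := fun z u => β (u⁻¹ * z)

theorem convMat_mulVec (β f : G → k) (z : G) :
    (convMat β *ᵥ f) z = ∑ u, β (u⁻¹ * z) * f u := rfl

theorem convMat_idem {β : G → k} (hid : ∀ z, ∑ y, β y * β (y⁻¹ * z) = β z) :
    convMat β * convMat β = convMat β := by
  ext z u
  rw [Matrix.mul_apply]
  show ∑ v, β (v⁻¹ * z) * β (u⁻¹ * v) = β (u⁻¹ * z)
  rw [← hid (u⁻¹ * z)]
  refine Fintype.sum_equiv (Equiv.mulLeft u⁻¹) _ _ fun v => ?_
  simp only [Equiv.coe_mulLeft, _root_.mul_inv_rev]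
  rw [mul_comm]
  congr 2
  group

variable (P : Subgroup G)

/-- `P × P` acts by multiplication on both sides. -/
@[reducible] def bi : MulAction (P × P) G where
  smul x u := (x.1 : G) * u * (x.2 : G)⁻¹
  one_smul u := show ((1 : P × P).1 : G) * u * ((1 : P × P).2 : G)⁻¹ = u by simp
  mul_smul x y u := show ((x * y).1 : G) * u * ((x * y).2 : G)⁻¹ =
      (x.1 : G) * ((y.1 : G) * u * (y.2 : G)⁻¹) * (x.2 : G)⁻¹ by simp [mul_assoc]

attribute [local instance] bi

theorem bi_smul (x : P × P) (u : G) : x • u = (x.1 : G) * u * (x.2 : G)⁻¹ := rfl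

/-- The action on functions. -/
def biFun : P × P →* AddMonoid.End (G → k) where
  toFun x := AddMonoidHom.mk' (fun f z => f (x⁻¹ • z)) fun _ _ => rfl
  map_one' := by
    refine AddMonoidHom.ext fun f => funext fun z => ?_
    show f ((1 : P × P)⁻¹ • z) = f z
    rw [inv_one, one_smul]
  map_mul' x y := by
    refine AddMonoidHom.ext fun f => funext fun z => ?_
    show f ((x * y)⁻¹ • z) = f (y⁻¹ • x⁻¹ • z)
    rw [_root_.mul_inv_rev, mul_smul]

theorem biFun_apply (x : P × P) (f : G → k) (z : G) : biFun P x f z = f (x⁻¹ • z) := rfl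

variable {P} {β : G → k}

theorem conv_biFun (hcl : ∀ g h, β (h * g * h⁻¹) = β g) (x : P × P) (f : G → k) :
    convMat β *ᵥ biFun P x f = biFun P x (convMat β *ᵥ f) := by
  funext z
  rw [biFun_apply, convMat_mulVec, convMat_mulVec]
  refine Fintype.sum_equiv (MulAction.toPerm x⁻¹) _ _ fun u => ?_
  simp only [MulAction.toPerm_apply, biFun_apply]
  congr 1
  rw [← hcl (u⁻¹ * z) (x.2⁻¹ : P)]
  congr 1
  simp [bi_smul, mul_assoc]

theorem isPGroup_prod (hP : IsPGroup p P) : IsPGroup p (P × P) := by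
  have := Fintype.ofFinite P
  obtain ⟨n, hn⟩ := IsPGroup.iff_card.1 hP
  exact IsPGroup.iff_card.2 ⟨n + n, by rw [Nat.card_prod, hn, pow_add]⟩

theorem nsmul_fun_eq_zero (f : G → k) : p • f = 0 :=
  funext fun z => by simp [CharP.cast_eq_zero]

theorem card_stabilizer (u : G) :
    Nat.card (stabilizer (P × P) u) = Nat.card ↥(P ⊓ H22.cS u⁻¹ P) := by
  refine Nat.card_congr
    { toFun := fun x => ⟨(x.1.2 : G), x.1.2.2, H22.mem_cS.2 ?_⟩
      invFun := fun t => ⟨(⟨u * (t : G) * u⁻¹, by simpa using H22.mem_cS.1 t.2.2⟩, ⟨t, t.2.1⟩), ?_⟩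
      left_inv := fun x => ?_
      right_inv := fun t => rfl }
  · have h := x.2
    rw [mem_stabilizer_iff, bi_smul, mul_inv_eq_iff_eq_mul] at h
    rw [inv_inv, ← h, mul_inv_cancel_right]
    exact x.1.1.2
  · rw [mem_stabilizer_iff, bi_smul]
    simp [mul_assoc]
  · have h := x.2
    rw [mem_stabilizer_iff, bi_smul, mul_inv_eq_iff_eq_mul] at h
    exact Subtype.ext (Prod.ext (Subtype.ext (show u * (x.1.2 : G) * u⁻¹ = (x.1.1 : G) by
      rw [← h, mul_inv_cancel_right])) rfl)

open scoped Classical in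
/-- The indicator function of an orbit. -/
noncomputable def orbInd (P : Subgroup G) (g : G) : G → k :=
  fun z => if z ∈ orbit (P × P) g then 1 else 0

/-- There is a double coset of small stabiliser whose sum survives. -/
theorem exists_orbit (hP : IsPGroup p P) (hcl : ∀ g h, β (h * g * h⁻¹) = β g)
    (hid : ∀ z, ∑ y, β y * β (y⁻¹ * z) = β z) (hβ : β ≠ 0) {d : ℕ}
    (hmax : ∀ R : Subgroup G, IsPGroup p R →
      (∃ y ∈ Subgroup.centralizer (R : Set G), β y ≠ 0) → Nat.card R ≤ p ^ d) :
    ∃ g, Nat.card (stabilizer (P × P) g) ≤ p ^ d ∧ convMat β *ᵥ orbInd P g ≠ 0 := by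
  classical
  let S : AddSubgroup (G → k) :=
    { carrier := {f | convMat β *ᵥ f = f}
      add_mem' := fun {f g} hf hg => by
        simp only [Set.mem_ofPred_eq] at hf hg ⊢
        rw [mulVec_add, hf, hg]
      zero_mem' := mulVec_zero _
      neg_mem' := fun {f} hf => by
        simp only [Set.mem_ofPred_eq] at hf ⊢
        rw [mulVec_neg, hf] }
  have hβS : β ∈ S := funext fun z => by
    rw [convMat_mulVec, ← hid z]
    exact Finset.sum_congr rfl fun u _ => mul_comm _ _
  obtain ⟨v, hv, hv0, hfix⟩ := exists_fixed_ne_zero (isPGroup_prod hP) nsmul_fun_eq_zero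
    (biFun P) S (fun x f hf => by
      show convMat β *ᵥ biFun P x f = biFun P x f
      rw [conv_biFun hcl, show convMat β *ᵥ f = f from hf]) hβS hβ
  have hvo : ∀ (x : P × P) z, v (x • z) = v z := fun x z => by
    have := congrFun (hfix x⁻¹) z
    rwa [biFun_apply, inv_inv] at this
  have hsmall : ∀ u, v u ≠ 0 → Nat.card (stabilizer (P × P) u) ≤ p ^ d := by
    intro u hu
    rw [card_stabilizer]
    refine hmax _ (hP.to_le inf_le_left) ?_
    by_contra hno
    push Not at hno
    refine hu ?_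
    have hv' : v u = ∑ z, β z * v (u * z⁻¹) := by
      conv_lhs => rw [← show convMat β *ᵥ v = v from hv, convMat_mulVec]
      refine Fintype.sum_equiv ((Equiv.inv G).trans (Equiv.mulRight u)) _ _ fun w => ?_
      simp only [Equiv.trans_apply, Equiv.inv_apply, Equiv.coe_mulRight]
      congr 2
      group
    rw [hv', H40.sum_eq_sum_centralizer (hP.to_le inf_le_left)
      (fun m : k => by rw [nsmul_eq_mul, CharP.cast_eq_zero, zero_mul]) _ (fun q hq z => ?_)]
    · exact Finset.sum_eq_zero fun z hz => by rw [hno z (Finset.mem_filter.1 hz).2, zero_mul]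
    · rw [hcl]
      congr 1
      have hq2 : u * q * u⁻¹ ∈ P := by simpa using H22.mem_cS.1 hq.2
      rw [← hvo (⟨u * q * u⁻¹, hq2⟩, ⟨q, hq.1⟩) (u * z⁻¹), bi_smul]
      congr 1
      group
  by_contra hall
  push Not at hall
  refine hv0 ?_
  have := Fintype.ofFinite (orbitRel.Quotient (P × P) G)
  have hdec : v = ∑ q : orbitRel.Quotient (P × P) G, v q.out • orbInd (k := k) P q.out := by
    funext z
    rw [Finset.sum_apply, Finset.sum_eq_single (Quotient.mk (orbitRel (P × P) G) z)]
    · have hz : z ∈ orbit (P × P) (Quotient.mk (orbitRel (P × P) G) z).out := by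
        have := Quotient.mk_out (s := orbitRel (P × P) G) z
        exact mem_orbit_symm.1 this
      obtain ⟨x, hx⟩ := hz
      have hz' : z ∈ orbit (P × P) (Quotient.mk (orbitRel (P × P) G) z).out := ⟨x, hx⟩
      simp only [Pi.smul_apply, smul_eq_mul, orbInd, hz', if_true, mul_one]
      conv_lhs => rw [← hx]
      exact hvo x _
    · intro q _ hq
      have hn : z ∉ orbit (P × P) q.out := fun h => hq (by
        rw [← Quotient.out_eq q]
        exact (Quotient.sound (s := orbitRel (P × P) G) h).symm)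
      simp [orbInd, hn]
    · exact fun h => absurd (Finset.mem_univ _) h
  rw [← show convMat β *ᵥ v = v from hv]
  conv_lhs => rw [hdec]
  rw [mulVec_sum]
  refine Finset.sum_eq_zero fun q _ => ?_
  rw [mulVec_smul]
  rcases eq_or_ne (v q.out) 0 with h | h
  · rw [h, zero_smul]
  · rw [hall _ (hsmall _ h), smul_zero]

/-- A surviving orbit gives linearly independent translates. -/
theorem eq_zero_of_supp_orbit (hP : IsPGroup p P) (hcl : ∀ g h, β (h * g * h⁻¹) = β g) {g : G}
    (hg : convMat β *ᵥ orbInd P g ≠ 0) {f : G → k}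
    (hf : ∀ z, z ∉ orbit (P × P) g → f z = 0) (h0 : convMat β *ᵥ f = 0) : f = 0 := by
  by_contra hne
  let S : AddSubgroup (G → k) :=
    { carrier := {f | (∀ z, z ∉ orbit (P × P) g → f z = 0) ∧ convMat β *ᵥ f = 0}
      add_mem' := fun {a b} ha hb =>
        ⟨fun z hz => by simp [ha.1 z hz, hb.1 z hz], by rw [mulVec_add, ha.2, hb.2, add_zero]⟩
      zero_mem' := ⟨fun _ _ => rfl, mulVec_zero _⟩
      neg_mem' := fun {a} ha =>
        ⟨fun z hz => by simp [ha.1 z hz], by rw [mulVec_neg, ha.2, neg_zero]⟩ }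
  obtain ⟨c, hc, hc0, hfix⟩ := exists_fixed_ne_zero (isPGroup_prod hP) nsmul_fun_eq_zero
    (biFun P) S (fun x a ha =>
      ⟨fun z hz => ha.1 _ fun h => hz (by simpa using (smul_orbit x g).subset ⟨_, h, rfl⟩),
        by rw [conv_biFun hcl, ha.2, map_zero]⟩) (a₀ := f) ⟨hf, h0⟩ hne
  have hconst : c = c g • orbInd P g := by
    funext z
    by_cases hz : z ∈ orbit (P × P) g
    · obtain ⟨x, rfl⟩ := hz
      have h1 := congrFun (hfix x⁻¹) g
      rw [biFun_apply, inv_inv] at h1
      simp [orbInd, mem_orbit, h1]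
    · simp [orbInd, hz, hc.1 z hz]
  have h2 : convMat β *ᵥ c = 0 := hc.2
  rw [hconst, mulVec_smul] at h2
  rcases smul_eq_zero.1 h2 with h | h
  · exact hc0 (by rw [hconst, h, zero_smul])
  · exact hg h

/-- Idempotents of least rank: `P` controls the automizers on the support. -/
theorem exists_mul_mem_centralizer (hP : IsPGroup p P) {a d : ℕ} (hPa : Nat.card P = p ^ a)
    (hcl : ∀ g h, β (h * g * h⁻¹) = β g) (hid : ∀ z, ∑ y, β y * β (y⁻¹ * z) = β z)
    (hmax : ∀ R : Subgroup G, IsPGroup p R →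
      (∃ y ∈ Subgroup.centralizer (R : Set G), β y ≠ 0) → Nat.card R ≤ p ^ d)
    {D : Subgroup G} (hDP : D ≤ P) (hD : ∃ y ∈ Subgroup.centralizer (D : Set G), β y ≠ 0)
    (hDc : Nat.card D = p ^ d) (hrk : (convMat β).rank ≤ p ^ (2 * a - d))
    {Q : Subgroup G} (hQP : Q ≤ P) (hQ : ∃ y ∈ Subgroup.centralizer (Q : Set G), β y ≠ 0)
    {x : G} (hx : x ∈ Subgroup.normalizer (Q : Set G)) :
    ∃ n ∈ P, x * n ∈ Subgroup.centralizer (Q : Set G) := by
  classical
  have hβ : β ≠ 0 := fun e => by obtain ⟨y, -, hy⟩ := hD; exact hy (congrFun e y)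
  obtain ⟨g, hst, hg⟩ := exists_orbit hP hcl hid hβ hmax
  -- the translates of the orbit span the image
  let E : (orbit (P × P) g → k) →ₗ[k] (G → k) := Function.ExtendByZero.linearMap k Subtype.val
  have hE : ∀ c z, z ∉ orbit (P × P) g → E c z = 0 := fun c z hz => by
    show Function.extend Subtype.val c 0 z = 0
    rw [Function.extend_apply' _ _ _ (by rintro ⟨w, rfl⟩; exact hz w.2)]
    rfl
  have hEinj : Function.Injective ((convMat β).mulVecLin ∘ₗ E) := by
    rw [injective_iff_map_eq_zero]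
    intro c hc
    have h0 := eq_zero_of_supp_orbit hP hcl hg (hE c) hc
    funext u
    have h1 := congrFun h0 u.1
    rwa [show E c u.1 = c u from Subtype.val_injective.extend_apply _ _ u] at h1
  have hsub : LinearMap.range ((convMat β).mulVecLin ∘ₗ E) ≤ LinearMap.range (convMat β).mulVecLin :=
    LinearMap.range_comp_le_range _ _
  have hfr : Module.finrank k (LinearMap.range ((convMat β).mulVecLin ∘ₗ E)) =
      Nat.card (orbit (P × P) g) := by
    rw [LinearMap.finrank_range_of_inj hEinj, Module.finrank_fintype_fun_eq_card,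
      Nat.card_eq_fintype_card]
  have hos : Nat.card (orbit (P × P) g) * Nat.card (stabilizer (P × P) g) = p ^ (2 * a) := by
    rw [← Nat.card_prod, ← Nat.card_congr (orbitProdStabilizerEquivGroup (P × P) g).symm,
      Nat.card_prod, hPa, ← pow_add, two_mul]
  have hda : d ≤ 2 * a := by
    have h1 : Nat.card D ≤ Nat.card P := Nat.card_le_card_of_injective _ (Subgroup.inclusion_injective hDP)
    rw [hDc, hPa, Nat.pow_le_pow_iff_right (Fact.out : p.Prime).one_lt] at h1
    omega
  have hle := Submodule.finrank_mono hsub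
  rw [hfr] at hle
  have hle' : Nat.card (orbit (P × P) g) ≤ p ^ (2 * a - d) := hle.trans hrk
  have hpd : 0 < p ^ d := pow_pos (Fact.out : p.Prime).pos _
  have hsplit : p ^ (2 * a - d) * p ^ d = p ^ (2 * a) := by rw [← pow_add, Nat.sub_add_cancel hda]
  have hsteq : Nat.card (stabilizer (P × P) g) = p ^ d := by
    refine le_antisymm hst ?_
    by_contra hlt
    push Not at hlt
    have h2 : Nat.card (orbit (P × P) g) * Nat.card (stabilizer (P × P) g) <
        p ^ (2 * a - d) * p ^ d :=
      Nat.lt_of_le_of_lt (Nat.mul_le_mul_right _ hle')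
        (Nat.mul_lt_mul_of_pos_left hlt (pow_pos (Fact.out : p.Prime).pos _))
    omega
  have hoeq : Nat.card (orbit (P × P) g) = p ^ (2 * a - d) := by
    rw [hsteq, ← hsplit] at hos
    exact Nat.eq_of_mul_eq_mul_right hpd hos
  have hrange : LinearMap.range ((convMat β).mulVecLin ∘ₗ E) = LinearMap.range (convMat β).mulVecLin :=
    Submodule.eq_of_le_of_finrank_le hsub (by rw [hfr, hoeq]; exact hrk)
  -- every coset of a centraliser in a normaliser meets the orbit
  have key : ∀ R : Subgroup G, R ≤ P → (∃ y ∈ Subgroup.centralizer (R : Set G), β y ≠ 0) →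
      ∀ w ∈ Subgroup.normalizer (R : Set G),
        ∃ u ∈ orbit (P × P) g, ∀ q ∈ R, q * u = u * (w⁻¹ * q * w) := by
    intro R hRP ⟨y, hy, hy0⟩ w hw
    obtain ⟨c, hc⟩ : (convMat β).mulVecLin (Pi.single w 1) ∈
        LinearMap.range ((convMat β).mulVecLin ∘ₗ E) := by
      rw [hrange]
      exact LinearMap.mem_range_self _ _
    have hc' : convMat β *ᵥ E c = fun z => β (w⁻¹ * z) := by
      rw [show convMat β *ᵥ E c = (convMat β).mulVecLin (Pi.single w 1) from hc,
        Matrix.mulVecLin_apply, Matrix.mulVec_single_one]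
      rfl
    have hRn : ∀ q ∈ R, w⁻¹ * q * w ∈ R := fun q hq => by
      simpa using (Subgroup.mem_normalizer_iff.1 (inv_mem hw) q).1 hq
    have hinv : ∀ q (hq : q ∈ R), biFun P (⟨q, hRP hq⟩, ⟨w⁻¹ * q * w, hRP (hRn q hq)⟩) (E c) = E c := by
      intro q hq
      rw [← sub_eq_zero]
      refine eq_zero_of_supp_orbit hP hcl hg (fun z hz => ?_) ?_
      · rw [Pi.sub_apply, hE c z hz, biFun_apply, hE c, sub_zero]
        intro h
        refine hz ?_
        have := (smul_orbit (⟨q, hRP hq⟩, ⟨w⁻¹ * q * w, hRP (hRn q hq)⟩) g).subset ⟨_, h, rfl⟩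
        simp only [smul_inv_smul] at this
        exact this
      · rw [mulVec_sub, conv_biFun hcl, hc', sub_eq_zero]
        funext z
        rw [biFun_apply, ← hcl (w⁻¹ * z) (w⁻¹ * q⁻¹ * w)]
        congr 1
        simp [bi_smul, mul_assoc]
    by_contra hno
    push Not at hno
    refine hy0 ?_
    have h1 := congrFun hc' (w * y)
    rw [convMat_mulVec, inv_mul_cancel_left] at h1
    rw [← h1]
    let _ : MulAction R G :=
      { smul := fun q u => (q : G) * u * (w⁻¹ * (q : G) * w)⁻¹
        one_smul := fun u => show ((1 : R) : G) * u * (w⁻¹ * ((1 : R) : G) * w)⁻¹ = u by simp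
        mul_smul := fun q q' u => show ((q * q' : R) : G) * u * (w⁻¹ * ((q * q' : R) : G) * w)⁻¹ =
          (q : G) * ((q' : G) * u * (w⁻¹ * (q' : G) * w)⁻¹) * (w⁻¹ * (q : G) * w)⁻¹ by
            simp [mul_assoc] }
    rw [H40.sum_eq_sum_fixedPoints (p := p) (hP.to_le hRP)
      (fun m : k => by rw [nsmul_eq_mul, CharP.cast_eq_zero, zero_mul]) _ (fun q u => ?_)]
    · refine Finset.sum_eq_zero fun u hu => ?_
      rw [hE c u, mul_zero]
      intro huo
      obtain ⟨q, hq, hne⟩ := hno u huo
      refine hne ?_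
      have h2 : (q : G) * u * (w⁻¹ * q * w)⁻¹ = u := (Finset.mem_filter.1 hu).2 (⟨q, hq⟩ : R)
      rwa [mul_inv_eq_iff_eq_mul] at h2
    · show β (((q : G) * u * (w⁻¹ * (q : G) * w)⁻¹)⁻¹ * (w * y)) *
        E c ((q : G) * u * (w⁻¹ * (q : G) * w)⁻¹) = _
      have hyq : (w⁻¹ * (q : G) * w) * y = y * (w⁻¹ * (q : G) * w) :=
        Subgroup.mem_centralizer_iff.1 hy _ (hRn _ q.2)
      congr 1
      · rw [← hcl (u⁻¹ * (w * y)) (w⁻¹ * (q : G) * w)]
        congr 1
        have : (q : G)⁻¹ * (w * y) = w * y * (w⁻¹ * (q : G) * w)⁻¹ := by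
          rw [eq_mul_inv_iff_mul_eq, mul_assoc, mul_assoc w y, ← hyq]
          group
        calc ((q : G) * u * (w⁻¹ * (q : G) * w)⁻¹)⁻¹ * (w * y)
            = w⁻¹ * (q : G) * w * u⁻¹ * ((q : G)⁻¹ * (w * y)) := by group
          _ = _ := by rw [this]; group
      · have := congrFun (hinv _ q.2) ((q : G) * u * (w⁻¹ * (q : G) * w)⁻¹)
        rw [biFun_apply] at this
        rw [← this]
        simp [bi_smul, mul_assoc]
  -- the orbit is that of an element centralising `D`, with diagonal stabiliser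
  obtain ⟨c₀, hc₀, hc₀D⟩ := key D hDP hD 1 (one_mem _)
  simp only [inv_one, one_mul, mul_one] at hc₀D
  have horb : orbit (P × P) g = orbit (P × P) c₀ := (orbit_eq_iff.2 hc₀).symm
  have hdiag : ∀ z : P × P, z • c₀ = c₀ → (z.1 : G) = z.2 := by
    intro z hz
    have hcard : Nat.card (stabilizer (P × P) c₀) = p ^ d := by
      have h1 : Nat.card (orbit (P × P) c₀) * Nat.card (stabilizer (P × P) c₀) =
          Nat.card (orbit (P × P) g) * Nat.card (stabilizer (P × P) g) := by
        rw [← Nat.card_prod, ← Nat.card_prod,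
          ← Nat.card_congr (orbitProdStabilizerEquivGroup (P × P) c₀).symm,
          ← Nat.card_congr (orbitProdStabilizerEquivGroup (P × P) g).symm]
      rw [← horb, hoeq, hsteq] at h1
      exact Nat.eq_of_mul_eq_mul_left (pow_pos (Fact.out : p.Prime).pos _) h1
    let ι : D → stabilizer (P × P) c₀ := fun q => ⟨(⟨q, hDP q.2⟩, ⟨q, hDP q.2⟩), by
      rw [mem_stabilizer_iff, bi_smul, mul_inv_eq_iff_eq_mul]
      exact hc₀D q q.2⟩
    have hι : Function.Injective ι := fun q q' h => Subtype.ext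
      (congrArg (fun s : stabilizer (P × P) c₀ => (s.1.1 : G)) h)
    obtain ⟨q, hq⟩ := (hι.bijective_of_nat_card_le (by rw [hcard, hDc])).2 ⟨z, hz⟩
    rw [← show ((⟨q, hDP q.2⟩, ⟨q, hDP q.2⟩) : P × P) = z from congrArg Subtype.val hq]
  obtain ⟨u, hu, hux⟩ := key Q hQP hQ x hx
  rw [horb] at hu
  obtain ⟨⟨s, t⟩, rfl⟩ := hu
  refine ⟨(t : G) * (s : G)⁻¹, P.mul_mem t.2 (P.inv_mem s.2), ?_⟩
  rw [Subgroup.mem_centralizer_iff]
  intro q hq
  have hqx : x⁻¹ * q * x ∈ P :=
    hQP (by simpa using (Subgroup.mem_normalizer_iff.1 (inv_mem hx) q).1 hq)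
  have h2 : q * ((s : G) * c₀ * (t : G)⁻¹) = (s : G) * c₀ * (t : G)⁻¹ * (x⁻¹ * q * x) := hux q hq
  have h3 := hdiag (s⁻¹ * ⟨q, hQP hq⟩ * s, t⁻¹ * ⟨x⁻¹ * q * x, hqx⟩ * t) (by
    rw [bi_smul]
    push_cast
    calc (s : G)⁻¹ * q * s * c₀ * ((t : G)⁻¹ * (x⁻¹ * q * x) * t)⁻¹
        = (s : G)⁻¹ * (q * ((s : G) * c₀ * (t : G)⁻¹)) * (x⁻¹ * q * x)⁻¹ * t := by group
      _ = c₀ := by rw [h2]; group)
  push_cast at h3
  calc q * (x * ((t : G) * (s : G)⁻¹)) = x * ((x⁻¹ * q * x) * ((t : G) * (s : G)⁻¹)) := by group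
    _ = x * ((t : G) * ((t : G)⁻¹ * (x⁻¹ * q * x) * t) * (s : G)⁻¹) := by group
    _ = x * ((t : G) * ((s : G)⁻¹ * q * s) * (s : G)⁻¹) := by rw [h3]
    _ = x * ((t : G) * (s : G)⁻¹) * q := by group

end Main

end Cfsg.Agent.H56.MinDim
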