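import Cfsg.Agent.H43.D1.FullBlock
import Cfsg.Agent.H40.SecondMain

/-!
# The block induced from a character of the centralizer of a Sylow subgroup of prime order
-/

set_option autoImplicit false
set_option linter.unusedSectionVars false
set_option maxHeartbeats 800000

open scoped ComplexConjugate

namespace Cfsg.Agent.H56.PrimeDefect

open Cfsg.Agent.H43
open Cfsg.Agent.H43.D1

attribute [local instance] Fintype.ofFinite Classical.propDecidable

variable {p : ℕ} [hp : Fact p.Prime] {G : Type*} [Group G] [Finite G] (S : Setup p G)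
  {M : Ideal Cfsg.AlgInt}

theorem sum_av_twist (χ : Cfsg.IrrCharacter G) {θ θ' : Cfsg.IrrCharacter S.V} (h : θ' ∈ S.orb θ) :
    ∑ c : (ZMod p)ˣ, (S.av χ θ' (c : ZMod p) : ℂ) = ∑ c : (ZMod p)ˣ, (S.av χ θ (c : ZMod p) : ℂ) := by
  obtain ⟨l, -, rfl⟩ := Finset.mem_image.1 h
  refine Fintype.sum_equiv (Equiv.mulLeft (S.act l)⁻¹) _ _ fun c => ?_
  rw [S.av_twist, Equiv.coe_mulLeft, Units.val_mul]

theorem orb_degree {θ θ' : Cfsg.IrrCharacter S.V} (h : θ' ∈ S.orb θ) : θ'.1 1 = θ.1 1 := by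
  obtain ⟨l, -, rfl⟩ := Finset.mem_image.1 h
  rw [kerTwist_apply, map_one]

/-- The degree of a member of a family, modulo `p`, from its local data. -/
theorem degree_modEq {χ : Cfsg.IrrCharacter G} {θ : Cfsg.IrrCharacter S.V} (hχ : χ ∈ S.supp θ)
    (A : ℤ) (hA : ∑ c : (ZMod p)ˣ, S.av χ θ (c : ZMod p) = A) :
    (Cfsg.charDegree χ.1 : ℤ) ≡ -(((S.orb θ).card * Cfsg.charDegree θ.1 : ℕ) : ℤ) * A [ZMOD p] := by
  obtain ⟨m, hm⟩ := S.exists_degree_eq hχ
  rw [Finset.sum_congr rfl fun θ' h => by rw [orb_degree S h, sum_av_twist S χ h], Finset.sum_const,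
    nsmul_eq_mul] at hm
  have h1 : (Cfsg.charDegree χ.1 : ℤ) =
      (p : ℤ) * m - ((S.orb θ).card : ℤ) * ((Cfsg.charDegree θ.1 : ℤ) * A) := by
    rw [← Int.cast_inj (α := ℂ)]
    push_cast [← hA]
    rw [← irr_charDegree_spec, ← irr_charDegree_spec]
    exact hm
  rw [h1]
  exact Int.modEq_iff_dvd.2 ⟨-(m : ℤ), by push_cast; ring⟩

/-- The family of `θ` is the whole block of each of its members, and its shape. -/
theorem family (hM : Cfsg.IsPModular p M) [M.IsMaximal] (θ : Cfsg.IrrCharacter S.V)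
    {B : Set (Cfsg.IrrCharacter G)} (hB : Cfsg.IsPBlock M B) {χ₀ : Cfsg.IrrCharacter G}
    (hχ₀ : χ₀ ∈ S.supp θ) (hχ₀B : χ₀ ∈ B) :
    ∃ X Y : Finset (Cfsg.IrrCharacter G), B = (X : Set (Cfsg.IrrCharacter G)) ∪ Y ∧ Disjoint X Y ∧
      X.card = S.fN θ ∧ Y.card = S.tN θ ∧
      (∀ χ ∈ X, ∃ s : ℤ, (s = 1 ∨ s = -1) ∧ (Cfsg.charDegree χ.1 : ℤ) ≡
        s * (((S.orb θ).card * Cfsg.charDegree θ.1 : ℕ) : ℤ) [ZMOD p]) ∧
      (∃ ε : ℤ, (ε = 1 ∨ ε = -1) ∧ ∀ ψ ∈ Y, (Cfsg.charDegree ψ.1 : ℤ) ≡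
        ε * (((S.orb θ).card * S.fN θ * Cfsg.charDegree θ.1 : ℕ) : ℤ) [ZMOD p]) ∧
      ∀ ψ ∈ Y, ∀ ψ' ∈ Y, ∀ g : G, ¬ p ∣ orderOf g → ψ.1 g = ψ'.1 g := by
  obtain ⟨e, ε, b, he, hε, hbe, hav, hb⟩ := (S.gram_av θ).2 (S.count_main.2.1 θ)
  have hε0 : ε ≠ 0 := by rcases hε with rfl | rfl <;> norm_num
  set Y := Finset.univ.image e with hY
  have hYc : Y.card = S.tN θ := by
    rw [hY, Finset.card_image_of_injective _ he, Finset.card_univ, Setup.tN, Nat.card_eq_fintype_card]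
  have heF : ∀ j, e j ∈ S.supp θ := fun j => S.mem_supp.2 ⟨Quotient.out j, by
    rw [hav, hbe, zero_add, QuotientGroup.out_eq', if_pos rfl]; exact hε0⟩
  have hYF : Y ⊆ S.supp θ := fun χ hχ => by
    obtain ⟨j, -, rfl⟩ := Finset.mem_image.1 hχ
    exact heF j
  have hout : ∀ χ, χ ∉ Y → ∀ c : (ZMod p)ˣ, S.av χ θ (c : ZMod p) = b χ := fun χ hχ c => by
    have hne : e (QuotientGroup.mk c) ≠ χ := fun h =>
      hχ (h ▸ Finset.mem_image_of_mem e (Finset.mem_univ _))
    rw [hav, if_neg hne, add_zero]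
  have hb1 : ∀ χ ∈ S.supp θ, χ ∉ Y → b χ = 1 ∨ b χ = -1 := fun χ hχ hn => by
    obtain ⟨c, hc⟩ := S.mem_supp.1 hχ
    rw [hout χ hn] at hc
    exact (hb χ).resolve_left hc
  have hYc' : (S.supp θ \ Y).card = S.fN θ := by
    rw [Finset.card_sdiff_of_subset hYF, S.count_main.2.1 θ, hYc, Nat.add_sub_cancel_left]
  have hconj : ∀ (i : (ZMod p)ˣ ⧸ stabImage S.act θ) u ψ, Setup.IsConjBy (e i) u ψ →
      ψ = e (QuotientGroup.mk u * i) := by
    intro i u ψ h
    rcases subsingleton_or_nontrivial ((ZMod p)ˣ ⧸ stabImage S.act θ) with hJ | hJ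
    · rw [S.eq_of_isConjBy_of_const h (heF i) ε fun c => by
        rw [hav, hbe, zero_add, if_pos (congrArg e (Subsingleton.elim _ i))]]
      exact congrArg e (Subsingleton.elim _ _)
    have hψ : ∀ c : (ZMod p)ˣ, S.av ψ θ (c : ZMod p) =
        if QuotientGroup.mk c = QuotientGroup.mk u * i then ε else 0 := fun c => by
      rw [S.av_of_isConjBy h, hav, hbe, zero_add]
      simp only [he.eq_iff, QuotientGroup.mk_mul, QuotientGroup.mk_inv, inv_mul_eq_iff_eq_mul]
    by_contra hne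
    have h1 := hψ (Quotient.out (QuotientGroup.mk u * i))
    obtain ⟨j, hj⟩ := exists_ne (QuotientGroup.mk u * i : (ZMod p)ˣ ⧸ stabImage S.act θ)
    have h2 := hψ (Quotient.out j)
    rw [hav, QuotientGroup.out_eq', if_pos rfl, if_neg (fun h => hne h.symm), add_zero] at h1
    rw [hav, QuotientGroup.out_eq', if_neg hj] at h2
    by_cases hje : e j = ψ
    · rw [if_pos hje, ← hje, hbe] at h2
      exact hε0 (by simpa using h2)
    · rw [if_neg hje, add_zero, h1] at h2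
      exact hε0 h2
  have hFmem := S.supp_coeff_mem M hM θ
  have hBF : B ⊆ (S.supp θ : Set (Cfsg.IrrCharacter G)) := fun χ hχ =>
    H40.mem_of_sameBlock_of_coeff_mem hFmem (Finset.mem_coe.2 hχ₀)
      ((H41.sameBlock_iff_omegaBar χ₀ χ).2 (H41.omegaBar_eq_of_mem hB hχ₀B hχ))
  have hBmem : ∀ g, Cfsg.MemLocalRing M (Cfsg.blockCoeff B g) := fun g => H41.blockCoeff_mem hB g
  set A := (S.supp θ).filter (· ∉ B) with hA
  have hAmem : ∀ g, Cfsg.MemLocalRing M (Cfsg.blockCoeff (A : Set (Cfsg.IrrCharacter G)) g) := by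
    intro g
    have h : Cfsg.blockCoeff (A : Set (Cfsg.IrrCharacter G)) g =
        Cfsg.blockCoeff (S.supp θ : Set (Cfsg.IrrCharacter G)) g - Cfsg.blockCoeff B g := by
      simp only [H40.blockCoeff_eq_sum, ← mul_sub]
      congr 1
      rw [eq_sub_iff_add_eq, ← Finset.sum_union]
      · refine Finset.sum_congr ?_ fun _ _ => rfl
        ext χ
        simp only [hA, Finset.mem_union, Finset.mem_filter, Finset.mem_univ, true_and, Finset.mem_coe]
        exact ⟨fun h => h.elim (·.1) (fun h => hBF h), fun h => by tauto⟩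
      · rw [Finset.disjoint_left]
        intro χ h1 h2
        simp only [hA, Finset.mem_filter, Finset.mem_univ, true_and, Finset.mem_coe] at h1 h2
        exact h1.2 h2
    rw [h]
    exact (H41.localRing M).sub_mem (hFmem g) (hBmem g)
  have hsmall : ∀ A' : Finset (Cfsg.IrrCharacter G), A' ⊆ S.supp θ → (∀ χ ∈ A', χ ∉ Y) →
      (∀ g, Cfsg.MemLocalRing M (Cfsg.blockCoeff (A' : Set (Cfsg.IrrCharacter G)) g)) → A' = ∅ := by
    intro A' hs hn hm
    refine S.eq_empty_of_const M hM θ hs hm b (fun χ hχ => ?_) (fun χ hχ => hout χ (hn χ hχ)) ?_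
    · rcases hb1 χ (hs hχ) (hn χ hχ) with h | h <;> rw [h] <;> norm_num
    · refine lt_of_le_of_lt ?_ (S.fN_lt θ)
      rw [← hYc']
      exact Finset.card_le_card fun χ hχ => Finset.mem_sdiff.2 ⟨hs hχ, hn χ hχ⟩
  obtain ⟨j₀⟩ : Nonempty ((ZMod p)ˣ ⧸ stabImage S.act θ) := inferInstance
  have hsame : ∀ j, ∀ g : G, ¬ p ∣ orderOf g → (e j).1 g = (e j₀).1 g := by
    intro j g hg
    obtain ⟨-, ψ, -, -, hψ⟩ := S.exists_isConjBy (e j₀) (Quotient.out (j * j₀⁻¹))
    have hval := S.value_eq_of_isConjBy hψ hg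
    rwa [hconj _ _ _ hψ, QuotientGroup.out_eq', inv_mul_cancel_right] at hval
  have he0B : e j₀ ∈ B := by
    by_contra hne
    have hB' : B.toFinset = ∅ := by
      refine hsmall B.toFinset (fun χ hχ => hBF (Set.mem_toFinset.1 hχ)) (fun χ hχ hY' => ?_)
        (by simpa using hBmem)
      obtain ⟨j, -, rfl⟩ := Finset.mem_image.1 hY'
      exact hne (S.mem_of_regular_eq M hM hBmem (Set.mem_toFinset.1 hχ)
        fun g hg => (hsame j g hg).symm)
    exact Finset.notMem_empty χ₀ (hB' ▸ Set.mem_toFinset.2 hχ₀B)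
  have hYB : ∀ j, e j ∈ B := fun j => S.mem_of_regular_eq M hM hBmem he0B (hsame j)
  have hA0 : A = ∅ := hsmall A (Finset.filter_subset _ _) (fun χ hχ hY' => by
    obtain ⟨j, -, rfl⟩ := Finset.mem_image.1 hY'
    exact (Finset.mem_filter.1 hχ).2 (hYB j)) hAmem
  refine ⟨S.supp θ \ Y, Y, ?_, Finset.sdiff_disjoint, hYc', hYc, ?_, ⟨-ε, by omega, ?_⟩, ?_⟩
  · rw [← Finset.coe_union, Finset.sdiff_union_of_subset hYF]
    exact Set.Subset.antisymm hBF fun χ hχ => by_contra fun hn =>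
      Finset.notMem_empty χ (hA0 ▸ Finset.mem_filter.2 ⟨Finset.mem_coe.1 hχ, hn⟩)
  · intro χ hχ
    obtain ⟨hχF, hχY⟩ := Finset.mem_sdiff.1 hχ
    refine ⟨b χ, hb1 χ hχF hχY, ?_⟩
    refine (degree_modEq S hχF ((p - 1 : ℕ) * b χ) ?_).trans (Int.modEq_iff_dvd.2 ?_)
    · rw [Finset.sum_congr rfl fun c _ => hout χ hχY c, Finset.sum_const, Finset.card_univ,
        ZMod.card_units, nsmul_eq_mul]
    · refine ⟨b χ * (((S.orb θ).card * Cfsg.charDegree θ.1 : ℕ) : ℤ), ?_⟩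
      rw [Nat.cast_sub hp.out.pos]
      push_cast; ring
  · intro ψ hψ
    obtain ⟨j, -, rfl⟩ := Finset.mem_image.1 hψ
    have hA : ∑ c : (ZMod p)ˣ, S.av (e j) θ (c : ZMod p) = (S.fN θ : ℤ) * ε := by
      simp only [hav, hbe, zero_add, he.eq_iff]
      rw [← Finset.sum_filter, Finset.sum_const, nsmul_eq_mul]
      congr 1
      rw [Setup.fN, ← Fintype.card_subtype, ← Nat.card_eq_fintype_card]
      congr 1
      exact Nat.card_congr
        { toFun := fun c => ⟨(Quotient.out j)⁻¹ * c.1, by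
            rw [← QuotientGroup.eq, QuotientGroup.out_eq', c.2]⟩
          invFun := fun s => ⟨Quotient.out j * s.1, by
            rw [QuotientGroup.mk_mul, QuotientGroup.out_eq', (QuotientGroup.eq_one_iff _).2 s.2,
              mul_one]⟩
          left_inv := fun c => Subtype.ext (mul_inv_cancel_left _ _)
          right_inv := fun s => Subtype.ext (inv_mul_cancel_left _ _) }
    refine (degree_modEq S (hYF (Finset.mem_image_of_mem e (Finset.mem_univ j))) _ hA).trans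
      (Int.modEq_iff_dvd.2 ⟨0, ?_⟩)
    push_cast; ring
  · intro ψ hψ ψ' hψ' g hg
    obtain ⟨i, -, rfl⟩ := Finset.mem_image.1 hψ
    obtain ⟨j, -, rfl⟩ := Finset.mem_image.1 hψ'
    rw [hsame i g hg, hsame j g hg]

theorem mem_V_of_commute {g : G} (hgL : g ∈ S.L) (hc : g * S.x = S.x * g) :
    (⟨g, hgL⟩ : S.L) ∈ S.V := by
  refine Units.ext (S.x_pow_val_inj ?_)
  rw [← S.act_spec, Units.val_one, ZMod.val_one, pow_one]
  exact mul_inv_eq_iff_eq_mul.2 hc

theorem conj_of_mem_N {g : G} (hg : g ∈ S.N) :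
    ∃ l : S.L, ∃ u ∈ S.P, g = (l : G) * u ∧ g * S.x * g⁻¹ = S.x ^ (S.act l : ZMod p).val := by
  obtain ⟨l, hl, u, hu, rfl⟩ := S.mem_N_iff.1 hg
  refine ⟨⟨l, hl⟩, u, hu, rfl, ?_⟩
  obtain ⟨i, rfl⟩ := Subgroup.mem_zpowers_iff.1 hu
  rw [← S.act_spec]
  show _ = l * S.x * l⁻¹
  group

theorem centralizer_eq (C : Subgroup G) (hC : C = Subgroup.centralizer ({S.x} : Set G)) {g : G} :
    g ∈ C ↔ ∃ v : S.V, ∃ u ∈ S.P, g = ((v : S.L) : G) * u := by
  subst hC
  rw [Subgroup.mem_centralizer_singleton_iff]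
  constructor
  · intro h
    have hgx : g * S.x * g⁻¹ = S.x := by rw [h, mul_inv_cancel_right]
    have hgN : g ∈ S.N := S.mem_N_of_conj_mem (by rw [hgx]; exact Subgroup.mem_zpowers _)
    obtain ⟨l, u, hu, hgu, hconj⟩ := conj_of_mem_N S hgN
    refine ⟨⟨l, Units.ext (S.x_pow_val_inj ?_)⟩, u, hu, hgu⟩
    rw [← hconj, hgx, Units.val_one, ZMod.val_one, pow_one]
  · rintro ⟨v, u, hu, rfl⟩
    obtain ⟨i, rfl⟩ := Subgroup.mem_zpowers_iff.1 hu
    exact ((S.commute_of_mem_V v.2).mul_left ((Commute.refl S.x).zpow_left i)).eq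

/-- The local data of a block only involve characters whose blocks induce it. -/
theorem mem_inducingSet_of_sv (hM : Cfsg.IsPModular p M) [M.IsMaximal]
    {C : Subgroup G} (hC : C = Subgroup.centralizer ({S.x} : Set G))
    {θ : Cfsg.IrrCharacter C} (θV : Cfsg.IrrCharacter S.V)
    (hθV : ∀ (v : S.V) (h : ((v : S.L) : G) ∈ C), θV.1 v = θ.1 ⟨_, h⟩)
    {χ : Cfsg.IrrCharacter G} {i : (ZMod p)ˣ} (hsv : S.sv χ θV (i : ZMod p) ≠ 0) :
    Cfsg.IsInducedBlock M C (Cfsg.blockOf M (θ : C → ℂ)) (Cfsg.blockOf M (χ : G → ℂ)) := by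
  set x' := S.x ^ (i : ZMod p).val with hx'def
  have hx'o : orderOf x' = p := S.orderOf_x_pow i
  have hcen : Subgroup.centralizer ({x'} : Set G) = Subgroup.centralizer ({S.x} : Set G) := by
    have hz : Subgroup.zpowers x' = Subgroup.zpowers S.x :=
      Subgroup.eq_of_le_of_card_ge (Subgroup.zpowers_le.2 (Subgroup.pow_mem _ (Subgroup.mem_zpowers _) _))
        (by rw [Nat.card_zpowers, Nat.card_zpowers, hx'o, S.orderOf_x])
    rw [← Subgroup.centralizer_closure {x'}, ← Subgroup.centralizer_closure {S.x},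
      ← Subgroup.zpowers_eq_closure, ← Subgroup.zpowers_eq_closure, hz]
  rw [← hcen] at hC
  subst hC
  have hB := H41.isPBlock_blockOf (M := M) χ
  set T := H40.inducingSet M x' (Cfsg.blockOf M (χ : G → ℂ)) with hT
  by_contra hnot
  have hθT : θ ∉ T := hnot
  refine hsv ?_
  have hmemC : ∀ v : S.V, ((v : S.L) : G) ∈ (Subgroup.centralizer ({x'} : Set G)) := fun v =>
    (centralizer_eq S _ hcen).2 ⟨v, 1, S.P.one_mem, (mul_one _).symm⟩
  let ι : S.V → (Subgroup.centralizer ({x'} : Set G)) := fun v => ⟨_, hmemC v⟩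
  have hιinj : Function.Injective ι := fun a b h =>
    Subtype.ext (Subtype.ext (congrArg (fun c : (Subgroup.centralizer ({x'} : Set G)) => (c : G)) h))
  -- the coefficients live on the `p'`-part
  have hsupp : ∀ k : (Subgroup.centralizer ({x'} : Set G)), k ∉ Set.range ι → Cfsg.blockCoeff T k = 0 := by
    intro k hk
    have hsing : p ∣ orderOf k := by
      obtain ⟨v, u, hu, hku⟩ := (centralizer_eq S _ hcen).1 k.2
      by_cases hu1 : u = 1
      · exact absurd ⟨v, Subtype.ext (by rw [hku, hu1, mul_one])⟩ hk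
      · have hou : orderOf u = p := by
          refine ((Nat.dvd_prime hp.out).1 ?_).resolve_left fun h => hu1 (orderOf_eq_one_iff.1 h)
          exact (Subgroup.orderOf_dvd_natCard S.P hu).trans S.card_P.dvd
        have hc : Commute ((v : S.L) : G) u := by
          obtain ⟨j, rfl⟩ := Subgroup.mem_zpowers_iff.1 hu
          exact (S.commute_of_mem_V v.2).zpow_right j
        rw [← Subgroup.orderOf_coe, hku, hc.orderOf_mul_eq_mul_orderOf_of_coprime (by
          rw [hou]; exact (hp.out.coprime_iff_not_dvd.2 (S.not_dvd_orderOf_L _)).symm), hou]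
        exact dvd_mul_left _ _
    rw [H40.blockCoeff_eq_sum, H40.sum_mul_conj_eq_zero_of_mem hM
      (fun g => (H40.blockClosed_inducingSet x' _).blockCoeff_mem g) (x := (1 : (Subgroup.centralizer ({x'} : Set G))))
      (by simpa using hp.out.not_dvd_one) hsing, mul_zero]
  have hrange : ∀ F : (Subgroup.centralizer ({x'} : Set G)) → ℂ, ∑ k : (Subgroup.centralizer ({x'} : Set G)), Cfsg.blockCoeff T k * F k =
      ∑ w : S.V, Cfsg.blockCoeff T (ι w) * F (ι w) := fun F =>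
    ((Finset.sum_image hιinj.injOn).symm.trans (Finset.sum_subset (Finset.subset_univ _)
      fun k _ hk => by
        rw [hsupp k fun ⟨w, hw⟩ => hk (hw ▸ Finset.mem_image_of_mem ι (Finset.mem_univ w)),
          zero_mul])).symm
  -- the values on the section of `x'`
  have hχv : ∀ v : S.V, χ.1 (x' * ((v : S.L) : G)) =
      ∑ w : S.V, Cfsg.blockCoeff T (ι w) * χ.1 (x' * (((w * v : S.V) : S.L) : G)) := by
    intro v
    have hxC : x' ∈ (Subgroup.centralizer ({x'} : Set G)) := Subgroup.mem_centralizer_singleton_iff.2 rfl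
    have hcomm : ∀ w : S.V, Commute x' ((w : S.L) : G) := fun w =>
      (S.commute_of_mem_V w.2).symm.pow_left _
    have hpp : Cfsg.IsPPart p (x' * ((v : S.L) : G)) x' :=
      ⟨((v : S.L) : G), rfl, hcomm v, ⟨1, by rw [hx'o, pow_one]⟩, S.not_dvd_orderOf_L _⟩
    have h := H40.sum_inducingSet_mul (M := M) hM (x := x') ⟨1, by rw [hx'o, pow_one]⟩ hB
      (g := ⟨x' * ((v : S.L) : G), ((Subgroup.centralizer ({x'} : Set G))).mul_mem hxC (hmemC v)⟩) hpp χ
    rw [if_pos (H41.mem_blockOf_self χ), hrange] at h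
    rw [← h]
    refine Finset.sum_congr rfl fun w _ => congrArg _ (congrArg χ.1 ?_)
    show ((w : S.L) : G) * (x' * ((v : S.L) : G)) = _
    rw [Subgroup.coe_mul, Subgroup.coe_mul, ← mul_assoc, ← (hcomm w).eq, mul_assoc]
  have hθ0 : ∀ u : S.V, ∑ w : S.V, Cfsg.blockCoeff T (ι w) * conj (θV.1 (w⁻¹ * u)) = 0 := by
    intro u
    have h := H40.sum_blockCoeff_mul_irr T θ (ι u)⁻¹
    rw [if_neg hθT, hrange fun k => θ.1 (k * (ι u)⁻¹)] at h
    refine Eq.trans (Finset.sum_congr rfl fun w _ => ?_) h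
    congr 1
    rw [← H26.irr_inv θV, mul_inv_rev, inv_inv, ← H26.irr_conj θV (u⁻¹ * w) w,
      show w * (u⁻¹ * w) * w⁻¹ = w * u⁻¹ by group, hθV _ (hmemC _)]
    exact congrArg θ.1 (Subtype.ext rfl)
  simp only [Setup.sv, ← hx'def, Cfsg.classInner]
  refine mul_eq_zero_of_right _ ?_
  calc ∑ v : S.V, χ.1 (x' * ((v : S.L) : G)) * conj (θV.1 v)
      = ∑ w : S.V, ∑ v : S.V, Cfsg.blockCoeff T (ι w) *
          (χ.1 (x' * (((w * v : S.V) : S.L) : G)) * conj (θV.1 v)) := by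
        rw [Finset.sum_comm]
        exact Finset.sum_congr rfl fun v _ => by
          rw [hχv v, Finset.sum_mul]; simp only [mul_assoc]
    _ = ∑ w : S.V, ∑ u : S.V, Cfsg.blockCoeff T (ι w) *
          (χ.1 (x' * ((u : S.L) : G)) * conj (θV.1 (w⁻¹ * u))) :=
        Finset.sum_congr rfl fun w _ => Fintype.sum_equiv (Equiv.mulLeft w) _ _ fun v => by simp
    _ = ∑ u : S.V, χ.1 (x' * ((u : S.L) : G)) *
          ∑ w : S.V, Cfsg.blockCoeff T (ι w) * conj (θV.1 (w⁻¹ * u)) := by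
        rw [Finset.sum_comm]
        exact Finset.sum_congr rfl fun u _ => by
          rw [Finset.mul_sum]; exact Finset.sum_congr rfl fun w _ => by ring
    _ = 0 := by simp [hθ0]

end Cfsg.Agent.H56.PrimeDefect
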