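import Cfsg.Agent.H56.PrimeDefectBlock
import Cfsg.Agent.H32.BlockCount
import Cfsg.Agent.H43.CharKer
import Cfsg.Agent.H43.PPrimeDegree
import Cfsg.Agent.H45.Galois

/-!
# Blocks with a defect group of prime order that is a Sylow subgroup
-/

set_option autoImplicit false
set_option linter.unusedSectionVars false
set_option maxHeartbeats 800000

open scoped ComplexConjugate

namespace Cfsg.Agent.H56.PrimeDefect

open Cfsg.Agent.H43
open Cfsg.Agent.H43.D1

attribute [local instance] Fintype.ofFinite Classical.propDecidable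

variable {p : ℕ} [hp : Fact p.Prime] {G : Type*} [Group G] [Finite G] {M : Ideal Cfsg.AlgInt}

/-- The block induced from `θ`, with its stabilizer. -/
theorem count (hM : Cfsg.IsPModular p M) (S : Setup p G) {C : Subgroup G}
    (hC : C = Subgroup.centralizer ({S.x} : Set G)) (θ : Cfsg.IrrCharacter C)
    (hθP : ∀ x : C, (x : G) ∈ S.P → θ.1 x = θ.1 1) {B : Set (Cfsg.IrrCharacter G)}
    (hind : Cfsg.IsInducedBlock M C (Cfsg.blockOf M (θ : C → ℂ)) B) {T : Subgroup G}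
    (hT : ∀ g : G, g ∈ T ↔ (g ∈ S.N ∧ ∀ c c' : C, (c' : G) = g * c * g⁻¹ → θ.1 c' = θ.1 c)) :
    C.relIndex T ∣ p - 1 ∧ Nat.card B = C.relIndex T + (p - 1) / C.relIndex T ∧
    ∃ X Y : Set (Cfsg.IrrCharacter G), B = X ∪ Y ∧ Disjoint X Y ∧ Nat.card X = C.relIndex T ∧
      Nat.card Y = (p - 1) / C.relIndex T ∧
      (∀ χ ∈ X, (Cfsg.charDegree χ.1 : ℤ) ≡
          ((C.relIndex S.N / C.relIndex T * Cfsg.charDegree θ.1 : ℕ) : ℤ) [ZMOD p] ∨
        (Cfsg.charDegree χ.1 : ℤ) ≡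
          -((C.relIndex S.N / C.relIndex T * Cfsg.charDegree θ.1 : ℕ) : ℤ) [ZMOD p]) ∧
      (∃ ε : ℤ, (ε = 1 ∨ ε = -1) ∧ ∀ ψ ∈ Y, (Cfsg.charDegree ψ.1 : ℤ) ≡
          ε * ((C.relIndex S.N * Cfsg.charDegree θ.1 : ℕ) : ℤ) [ZMOD p]) ∧
      ∀ ψ ∈ Y, ∀ ψ' ∈ Y, ∀ g : G, ¬ p ∣ orderOf g → ψ.1 g = ψ'.1 g := by
  haveI : M.IsMaximal := hM.2.1
  have hmemC : ∀ v : S.V, ((v : S.L) : G) ∈ C := fun v =>
    (centralizer_eq S C hC).2 ⟨v, 1, S.P.one_mem, (mul_one _).symm⟩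
  have hPC : S.P ≤ C := fun u hu => (centralizer_eq S C hC).2 ⟨1, u, hu, by simp⟩
  -- the restriction of `θ`
  let ι : S.V →* C :=
    { toFun := fun v => ⟨_, hmemC v⟩
      map_one' := Subtype.ext rfl
      map_mul' := fun a b => Subtype.ext rfl }
  have hmul : ∀ (c : C) (u : C), (u : G) ∈ S.P → θ.1 (c * u) = θ.1 c := fun c u hu =>
    irr_mul_charKer θ c (mem_charKer.2 (hθP u hu))
  let e : S.V × S.P ≃ C := Equiv.ofBijective
    (fun q => ⟨((q.1 : S.L) : G) * (q.2 : G), C.mul_mem (hmemC q.1) (hPC q.2.2)⟩)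
    ⟨fun a b h => by
      have h1 := S.mul_unique (Subtype.mem _) (Subtype.mem _) a.2.2 b.2.2 (congrArg Subtype.val h)
      exact Prod.ext (Subtype.ext (Subtype.ext h1.1)) (Subtype.ext h1.2),
     fun c => by
      obtain ⟨v, u, hu, h⟩ := (centralizer_eq S C hC).1 c.2
      exact ⟨(v, ⟨u, hu⟩), Subtype.ext h.symm⟩⟩
  have hinner : Cfsg.classInner (θ.1 ∘ ι) (θ.1 ∘ ι) = 1 := by
    have h1 := H26.classInner_irr θ θ
    rw [if_pos rfl] at h1
    have hcard : (Nat.card C : ℂ) = (Nat.card S.V : ℂ) * (p : ℂ) := by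
      rw [← Nat.card_congr e, Nat.card_prod, S.card_P, Nat.cast_mul]
    have hval : ∀ q : S.V × S.P, θ.1 (e q) = θ.1 (ι q.1) := fun q => by
      rw [← hmul (ι q.1) ⟨q.2, hPC q.2.2⟩ q.2.2]
      exact congrArg θ.1 (Subtype.ext rfl)
    have hp0 : (p : ℂ) ≠ 0 := Nat.cast_ne_zero.2 hp.out.ne_zero
    refine Eq.trans ?_ h1
    simp only [Cfsg.classInner, Function.comp_apply, ← Nat.card_eq_fintype_card, hcard]
    rw [← e.sum_comp, Fintype.sum_prod_type,
      Finset.sum_congr rfl fun v _ => Finset.sum_congr rfl fun u _ => by rw [hval (v, u)]]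
    simp only [Finset.sum_const, Finset.card_univ, ← Nat.card_eq_fintype_card, S.card_P,
      nsmul_eq_mul]
    rw [← Finset.mul_sum]
    field_simp
  let θV : Cfsg.IrrCharacter S.V :=
    ⟨θ.1 ∘ ι, H45.isIrrCharacter_of_inner_self
      (H26.isCharacter_comp (H26.irr_isCharacter θ) ι) hinner⟩
  have hθV : ∀ (v : S.V) (h : ((v : S.L) : G) ∈ C), θV.1 v = θ.1 ⟨_, h⟩ := fun v h => rfl
  have hdeg : Cfsg.charDegree θV.1 = Cfsg.charDegree θ.1 := by
    rw [← Nat.cast_inj (R := ℂ), ← irr_charDegree_spec, ← irr_charDegree_spec]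
    show θ.1 (ι 1) = θ.1 1
    rw [map_one]
  -- the family of `θ` lies in `B`
  obtain ⟨χ₀, hχ₀⟩ : (S.supp θV).Nonempty := Finset.card_pos.1 (by
    rw [S.count_main.2.1 θV]; exact Nat.add_pos_left (S.tN_pos θV) _)
  obtain ⟨i, hi⟩ : ∃ i : (ZMod p)ˣ, S.sv χ₀ θV (i : ZMod p) ≠ 0 := by
    by_contra hall
    simp only [not_exists, not_not] at hall
    obtain ⟨c, hc⟩ := S.mem_supp.1 hχ₀
    refine hc ?_
    rw [← Int.cast_inj (α := ℂ), S.av_eq_units]
    simp [hall]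
  have hBeq : B = Cfsg.blockOf M (χ₀ : G → ℂ) :=
    H32.isInducedBlock_unique hind (mem_inducingSet_of_sv S hM hC θV hθV hi)
  obtain ⟨X, Y, hB, hdisj, hX, hY, hXd, ⟨ε, hε, hYd⟩, hYreg⟩ :=
    family S hM θV hind.2.1 hχ₀ (hBeq ▸ H41.mem_blockOf_self χ₀)
  -- the action of the normalizer
  have hspec : ∀ g : S.N, ∃ a : (ZMod p)ˣ, (g : G) * S.x * (g : G)⁻¹ = S.x ^ (a : ZMod p).val :=
    fun g => by
      obtain ⟨l, u, -, -, h⟩ := conj_of_mem_N S g.2
      exact ⟨S.act l, h⟩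
  choose a ha using hspec
  let φ : S.N →* (ZMod p)ˣ :=
    { toFun := a
      map_one' := Units.ext (S.x_pow_val_inj (by
        rw [← ha 1, Units.val_one, ZMod.val_one, pow_one]; simp))
      map_mul' := fun g h => Units.ext (S.x_pow_val_inj (by
        rw [← ha (g * h), Subgroup.coe_mul,
          show (g : G) * h * S.x * ((g : G) * h)⁻¹ = g * ((h : G) * S.x * (h : G)⁻¹) * (g : G)⁻¹ by group,
          ha h, ← conj_pow, ha g, ← pow_mul, S.x_pow_eq_iff, Nat.cast_mul, Units.val_mul,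
          ZMod.natCast_rightInverse, ZMod.natCast_rightInverse, ZMod.natCast_rightInverse])) }
  have hφl : ∀ (g : S.N) (l : S.L) (u : G), u ∈ S.P → (g : G) = (l : G) * u → φ g = S.act l := by
    intro g l u hu hgu
    refine Units.ext (S.x_pow_val_inj ?_)
    show S.x ^ (a g : ZMod p).val = _
    rw [← ha g, hgu, ← S.act_spec]
    obtain ⟨j, rfl⟩ := Subgroup.mem_zpowers_iff.1 hu
    group
  have hker : φ.ker = C.subgroupOf S.N := by
    ext g
    rw [Subgroup.mem_subgroupOf, hC, Subgroup.mem_centralizer_singleton_iff, MonoidHom.mem_ker]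
    constructor
    · intro h
      have h1 := ha g
      rw [show a g = 1 from h, Units.val_one, ZMod.val_one, pow_one] at h1
      exact mul_inv_eq_iff_eq_mul.1 h1
    · intro h
      refine Units.ext (S.x_pow_val_inj ?_)
      show S.x ^ (a g : ZMod p).val = _
      rw [← ha g, h, Units.val_one, ZMod.val_one, pow_one, mul_inv_cancel_right]
  have hrange : φ.range = S.act.range := by
    refine le_antisymm ?_ ?_
    · rintro _ ⟨g, rfl⟩
      obtain ⟨l, u, hu, hgu, -⟩ := conj_of_mem_N S g.2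
      exact ⟨l, (hφl g l u hu hgu).symm⟩
    · rintro _ ⟨l, rfl⟩
      exact ⟨⟨l, S.L_le_N l.2⟩, hφl _ l 1 S.P.one_mem (mul_one _).symm⟩
  have hf : C.relIndex S.N = Nat.card S.act.range := by
    rw [Subgroup.relIndex, ← hker, Subgroup.index_ker, hrange]
  have hTN : T ≤ S.N := fun g hg => ((hT g).1 hg).1
  have hCT : ∀ g ∈ C, g ∈ T := fun g hg => (hT g).2 ⟨by
      obtain ⟨v, u, hu, rfl⟩ := (centralizer_eq S C hC).1 hg
      exact S.N.mul_mem (S.L_le_N (Subtype.mem _)) (S.P_le_N hu), fun c c' h => by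
    rw [show c' = (⟨g, hg⟩ : C) * c * (⟨g, hg⟩ : C)⁻¹ from Subtype.ext h, H26.irr_conj]⟩
  have hstab : ∀ l : S.L, kerTwist S.act l θV = θV ↔ (l : G) ∈ T := by
    intro l
    constructor
    · intro h
      refine (hT _).2 ⟨S.L_le_N l.2, fun c c' hc => ?_⟩
      obtain ⟨v, u, hu, hcu⟩ := (centralizer_eq S C hC).1 c.2
      have h1 : θ.1 c = θV.1 v := by
        rw [show c = ⟨_, hmemC v⟩ * ⟨u, hPC hu⟩ from Subtype.ext hcu, hmul _ _ hu]; rfl
      have h2 : θ.1 c' = (kerTwist S.act l θV).1 v := by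
        rw [kerTwist_apply, hθV _ (hmemC _), ← hmul ⟨_, hmemC (MulAut.conjNormal l v)⟩
          ⟨(l : G) * u * (l : G)⁻¹, hPC (S.conj_mem l.2 hu)⟩ (S.conj_mem l.2 hu)]
        refine congrArg θ.1 (Subtype.ext ?_)
        show (c' : G) = ((l : G) * ((v : S.L) : G) * (l : G)⁻¹) * ((l : G) * u * (l : G)⁻¹)
        rw [hc, hcu]; group
      rw [h2, h, h1]
    · intro h
      refine Subtype.ext (funext fun v => ?_)
      rw [kerTwist_apply, hθV _ (hmemC _), hθV v (hmemC v)]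
      exact ((hT _).1 h).2 ⟨_, hmemC v⟩ _ rfl
  have himg : (T.subgroupOf S.N).map φ = stabImage S.act θV := by
    ext b
    rw [Subgroup.mem_map]
    constructor
    · rintro ⟨g, hg, rfl⟩
      obtain ⟨l, u, hu, hgu, -⟩ := conj_of_mem_N S g.2
      refine ⟨l, (hφl g l u hu hgu).symm, (hstab l).2 ?_⟩
      have hl : (l : G) = (g : G) * u⁻¹ := by rw [hgu, mul_inv_cancel_right]
      rw [hl]
      exact T.mul_mem hg (T.inv_mem (hCT u (hPC hu)))
    · rintro ⟨l, rfl, hl⟩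
      exact ⟨⟨l, S.L_le_N l.2⟩, (hstab l).1 hl, hφl _ l 1 S.P.one_mem (mul_one _).symm⟩
  have he : C.relIndex T = S.fN θV := by
    rw [← Subgroup.relIndex_subgroupOf hTN, ← hker, Subgroup.relIndex_ker, himg, Setup.fN]
  have hprod := S.tN_mul_fN θV
  have ht : (p - 1) / C.relIndex T = S.tN θV := by
    rw [he, ← hprod, Nat.mul_div_cancel _ (S.fN_pos θV)]
  have hfe : C.relIndex S.N / C.relIndex T = (S.orb θV).card := by
    rw [he, hf, ← S.card_orb_mul_fN θV, Nat.mul_div_cancel _ (S.fN_pos θV)]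
  refine ⟨he ▸ ⟨S.tN θV, by rw [← hprod, mul_comm]⟩, ?_, X, Y, hB, Finset.disjoint_coe.2 hdisj,
    ?_, ?_, fun χ hχ => ?_, ⟨ε, hε, fun ψ hψ => ?_⟩, fun ψ hψ ψ' hψ' g hg => hYreg ψ hψ ψ' hψ' g hg⟩
  · rw [ht, he, hB, ← Finset.coe_union, Nat.card_coe_set_eq, Set.ncard_coe_finset,
      Finset.card_union_of_disjoint hdisj, hX, hY]
  · rw [he, Nat.card_coe_set_eq, Set.ncard_coe_finset, hX]
  · rw [ht, Nat.card_coe_set_eq, Set.ncard_coe_finset, hY]
  · obtain ⟨s, hs, h⟩ := hXd χ hχ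
    rw [hfe, ← hdeg]
    rcases hs with rfl | rfl
    · left; simpa using h
    · right; simpa using h
  · rw [hf, ← hdeg, ← S.card_orb_mul_fN θV]
    exact hYd ψ hψ

end Cfsg.Agent.H56.PrimeDefect
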