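import Cfsg.Agent.H56.ClassNumberBound
import Cfsg.Agent.H42.Bounds
import Cfsg.Agent.H41.InducedCentral

/-!
# Groups with a single block
-/

set_option autoImplicit false

namespace Cfsg.Agent.H56.Deficiency

universe u

/-- A group with only the principal block has order bounded by a function of `|G|_p`. -/
theorem exists_bound_of_single_block (p : ℕ) [Fact p.Prime] (a : ℕ) : ∃ N : ℕ, ∀ (G : Type u)
    [Group G] [Finite G] (M : Ideal Cfsg.AlgInt), Cfsg.IsPModular p M →
    (Nat.card G).factorization p ≤ a →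
    (∀ B : Set (Cfsg.IrrCharacter G), Cfsg.IsPBlock M B → B = Cfsg.principalBlock M G) →
    Nat.card G ≤ N := by
  obtain ⟨N, hN⟩ := Cfsg.Agent.H56.Landau.exists_bound_card_of_classes.{u} (p ^ (2 * a) + 4)
  refine ⟨N, fun G _ _ M hM ha h => hN G ?_⟩
  classical
  haveI := hM.2.1
  haveI := Fintype.ofFinite G
  have hB : Cfsg.IsPBlock M (Cfsg.principalBlock M G) :=
    Cfsg.Agent.H41.isPBlock_principalBlock
  have hall : ∀ χ : Cfsg.IrrCharacter G, χ ∈ Cfsg.principalBlock M G := fun χ =>
    h _ (Cfsg.Agent.H41.isPBlock_blockOf χ) ▸ Cfsg.Agent.H41.mem_blockOf_self χ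
  have h1 := Cfsg.Agent.H42.four_mul_card_le hM hB
  have h2 : Nat.card (Cfsg.principalBlock M G) = Nat.card (ConjClasses G) := by
    rw [← Cfsg.Agent.H26.card_irr_eq_card_conjClasses]
    exact Nat.card_congr (Equiv.subtypeUnivEquiv hall)
  have h3 : Cfsg.blockDefect p (Cfsg.principalBlock M G) ≤ a := (Nat.sub_le _ _).trans ha
  have h4 := Nat.pow_le_pow_right (Fact.out : p.Prime).pos (Nat.mul_le_mul_left 2 h3)
  omega

end Cfsg.Agent.H56.Deficiency
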